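import Cfsg.Agent.H28.Tw5
import Cfsg.Agent.H6.ZS
import Cfsg.Agent.H1.Coprime2

/-! A component of the commuting graph of a class of involutions which is a Fischer group is everything. -/
namespace H28
open Cfsg H27
variable {G : Type*} [Group G]

theorem dih_conj {a b : G} (ha : a * a = 1) (hb : b * b = 1) (k : Nat) : a * (a * b) ^ k = ((a * b) ^ k)⁻¹ * a := by
  have : a * (a * b) * a⁻¹ = (a * b)⁻¹ := by
    rw [mul_inv_rev, inv_eq_of_mul_eq_one_right ha, inv_eq_of_mul_eq_one_right hb, ← mul_assoc, ha, one_mul]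
  rw [← inv_pow, ← this, conj_pow, inv_mul_cancel_right]
/-- two involutions are conjugate in the group they generate, or commute with a common involution -/
theorem dihedral [Finite G] {a b : G} (ha : a * a = 1) (hb : b * b = 1) :
    (∃ g, (∀ w, Commute w a → Commute w b → Commute w g) ∧ g * b * g⁻¹ = a) ∨
    ∃ v, v * v = 1 ∧ v ≠ 1 ∧ Commute a v ∧ Commute b v ∧ ∃ g, g * a * g⁻¹ = a * v ∨ g * b * g⁻¹ = a * v := by
  have e1 : ∀ k, ((a * b) ^ k)⁻¹ * a * (((a * b) ^ k)⁻¹)⁻¹ = a * (a * b) ^ (k + k) := fun k => by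
    rw [inv_inv, ← dih_conj ha hb, pow_add, mul_assoc]
  have e2 : ∀ k, ((a * b) ^ k)⁻¹ * b * (((a * b) ^ k)⁻¹)⁻¹ = a * (a * b) ^ (2 * k + 1) := fun k => by
    rw [inv_inv, show 2 * k + 1 = k + (1 + k) by omega, pow_add, ← mul_assoc, dih_conj ha hb, pow_add, pow_one]
    simp only [mul_assoc]; rw [← mul_assoc a a, ha, one_mul]
  rcases Nat.even_or_odd (orderOf (a * b)) with ⟨m, hm⟩ | ⟨k, hk⟩
  · have h1 : (a * b) ^ m * (a * b) ^ m = 1 := by rw [← pow_add, ← hm, pow_orderOf_eq_one]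
    have h2 : Commute a ((a * b) ^ m) := (dih_conj ha hb m).trans (by rw [inv_eq_of_mul_eq_one_right h1])
    have h0 := orderOf_pos (a * b)
    refine Or.inr ⟨_, h1, pow_ne_one_of_lt_orderOf (by omega) (by omega), h2, ?_, ?_⟩
    · have := h2.mul_left ((Commute.refl (a * b)).pow_right m)
      rwa [← mul_assoc, ha, one_mul] at this
    · rcases Nat.even_or_odd m with ⟨k, rfl⟩ | ⟨k, rfl⟩
      exacts [⟨_, Or.inl (e1 k)⟩, ⟨_, Or.inr (e2 k)⟩]
  · exact Or.inl ⟨_, fun w h1 h2 => ((h1.mul_right h2).pow_right k).inv_right,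
      by rw [e2, ← hk, pow_orderOf_eq_one, mul_one]⟩

theorem prod_mem_iff {A B : Subgroup G} {a : G} (h : ∀ x ∈ A, x ∈ B ∨ x * a ∈ B) (hc : ∀ x ∈ A, ∀ y ∈ A, Commute x y)
    (ha : a ∈ A) (h2 : a * a = 1) (l : List G) (hl : ∀ x ∈ l, x ∈ A ∧ x ∉ B) : l.prod ∈ B ↔ Even l.length := by
  induction l with
  | nil => simp
  | cons x t ih =>
    have hx := hl x List.mem_cons_self
    have ht := fun y hy => hl y (List.mem_cons_of_mem _ hy)
    have pA : t.prod ∈ A := A.list_prod_mem fun y hy => (ht y hy).1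
    rw [List.prod_cons, List.length_cons, Nat.even_add_one, ← ih ht]
    refine ⟨fun e p => hx.2 ((mul_mem_cancel_right p).1 e), fun n => ?_⟩
    have := mul_mem ((h x hx.1).resolve_left hx.2) ((h _ pA).resolve_left n)
    rwa [← (hc _ ha _ pA).eq, mul_assoc, ← mul_assoc a, h2, one_mul] at this
theorem mem_or_of_sup {A B : Subgroup G} {a : G} (hc : ∀ x ∈ A, ∀ y ∈ A, Commute x y) (hB : B ≤ A) (ha : a ∈ A)
    (h2 : a * a = 1) (e : B ⊔ Subgroup.zpowers a = A) : ∀ x ∈ A, x ∈ B ∨ x * a ∈ B := fun x hx => by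
  rw [← e, Subgroup.zpowers_eq_closure, ← B.closure_eq, ← Subgroup.closure_union] at hx
  have m : ∀ y, y ∈ Subgroup.closure ((B : Set G) ∪ {a}) → y ∈ A := fun y hy =>
    (Subgroup.closure_le A).2 (Set.union_subset hB (by simpa using ha)) hy
  induction hx using Subgroup.closure_induction with
  | mem y hy => exact hy.imp id fun (e : y = a) => by rw [e, h2]; exact B.one_mem
  | one => exact Or.inl B.one_mem
  | mul y z hy hz a1 a2 =>
    rcases a1 with a1 | a1 <;> rcases a2 with a2 | a2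
    · exact Or.inl (mul_mem a1 a2)
    · exact Or.inr (mul_assoc y z a ▸ mul_mem a1 a2)
    · exact Or.inr (by rw [mul_assoc, (hc _ (m z hz) _ ha).eq, ← mul_assoc]; exact mul_mem a1 a2)
    · have := mul_mem a1 a2
      rw [← (hc _ ha _ (m z hz)).eq, mul_assoc, ← mul_assoc a, h2, one_mul] at this
      exact Or.inl this
  | inv y hy a1 =>
    refine a1.imp inv_mem fun a1 => ?_
    have := inv_mem a1
    rwa [mul_inv_rev, inv_eq_of_mul_eq_one_right h2, ← (hc _ (inv_mem (m y hy)) _ ha).eq] at this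

/-- a component `C` of the commuting graph of `D`, generating `K` -/
structure Cp (D C : Set G) (K : Subgroup G) : Prop where
  cj : ∀ g : G, ∀ x ∈ D, g * x * g⁻¹ ∈ D
  sq : ∀ x ∈ D, x * x = 1
  sub : C ⊆ D
  tt : IsThreeTranspositionSet C
  cen : ∀ x ∈ C, ∀ g, Commute x g → g ∈ K
  nrm : ∀ g ∈ K, ∀ x ∈ C, g * x * g⁻¹ ∈ C
  cls : ∀ a ∈ C, ∀ b ∈ C, ∃ g ∈ K, g * a * g⁻¹ = b
  clo : ∀ x ∈ C, ∀ y ∈ D, Commute x y → y ∈ C
  fx : ∀ x ∈ K, x * x = 1 → ∃ y ∈ C, Commute y x
  iv : ∀ x ∈ K, x * x = 1 → ∃ l, Clq C l ∧ l.length ≤ 3 ∧ l.prod = x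
  nr : NR C 5
  h7 : ∀ a b, Clq C [a, b] → ∃ h, Clq (Nb C [a, b]) h ∧ h.length = 7 ∧ h.prod = 1
  x3 : ∀ l, Clq C l → l.length = 3 → ∃ e ∈ C, Commute e l.prod ∧ ∀ l', Clq C l' → l'.length = 2 → e * l.prod ≠ l'.prod
  two : ∃ a b, Clq C [a, b]

namespace Cp
variable {D C : Set G} {K : Subgroup G} (h : Cp D C K)
include h
theorem mem {x : G} (hx : x ∈ C) : x ∈ K := h.cen x hx x (Commute.refl x)
theorem norm {g x : G} (hx : x ∈ C) (e : g * x * g⁻¹ ∈ C) : g ∈ K := by
  obtain ⟨k, hk, e⟩ := h.cls _ e x hx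
  refine (mul_mem_cancel_left hk).1 (h.cen x hx _ (conj_eq_iff_commute.1 ?_).symm)
  rw [mul_inv_rev, mul_assoc k, mul_assoc k, ← mul_assoc (g * x), ← mul_assoc k, e]
theorem ofK {y : G} (hy : y ∈ D) (k : y ∈ K) : y ∈ C := let ⟨x, hx, c⟩ := h.fx y k (h.sq y hy); h.clo x hx y hy c
theorem not3 {l : List G} (c : Clq C l) (h2 : 2 ≤ l.length) (h3 : l.length ≤ 3) : l.prod ∉ D := fun m => by
  have := (h.nr.perm3 h.tt c (l' := [l.prod]) ⟨by simpa using h.ofK m (K.list_prod_mem fun x hx => h.mem (c.1 x hx)), by simp⟩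
    h3 (by simp; omega) (by simp)).length_eq
  simp at this; omega

theorem cent2 [Finite G] {a b : G} (c : Clq C [a, b]) {g : G} (hg : Commute (a * b) g) : g ∈ K := by
  have ha : a ∈ C := c.1 a (by simp)
  have hb : b ∈ C := c.1 b (by simp)
  have ab : Commute a b := c.comm a (by simp) b (by simp)
  have z2 : a * b * (a * b) = 1 := by simpa using c.sq h.tt
  let X := Subgroup.centralizer {a * b}
  let z : X := ⟨a * b, mem_cent1.2 (Commute.refl _)⟩
  have zc : ∀ x : X, Commute z x := fun x => Subtype.ext (mem_cent1.1 x.2)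
  have : (Subgroup.zpowers z).Normal := H6.normal_of_le_center' (Subgroup.zpowers_le.2 (Subgroup.mem_center_iff.2 fun x => (zc x).symm))
  let π := QuotientGroup.mk' (Subgroup.zpowers z)
  have pe : ∀ x y : X, π x = π y → x.1 = y.1 ∨ x.1 = y.1 * (a * b) := fun x y e => by
    obtain ⟨w, hw, e⟩ := (QuotientGroup.mk'_eq_mk' _).1 e.symm
    rw [← cl_one, mem_cl_cons_sq (Subtype.ext z2) (mem_cn.2 (by simp))] at hw
    simp only [cl, List.not_mem_nil, Set.setOf_false, Subgroup.closure_empty, Subgroup.mem_bot] at hw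
    rcases hw with rfl | hw
    · exact Or.inl (by rw [← e, mul_one])
    · exact Or.inr (by rw [← e, eq_inv_of_mul_eq_one_right hw, inv_eq_of_mul_eq_one_right (Subtype.ext z2 : z * z = 1)]; rfl)
  have L1 : ∀ u y : X, y.1 ∈ C → Commute (π u) (π y) → Commute y.1 (u * y * u⁻¹) ∧ u.1 ∈ K := fun u y hy e => by
    have k : Commute y.1 (u * y * u⁻¹) := by
      rcases pe (u * y * u⁻¹) y (by rw [map_mul, map_mul, map_inv, e.eq, mul_inv_cancel_right]) with e | e
      · exact (show (u * y * u⁻¹ : G) = y from e).symm ▸ Commute.refl _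
      · exact (show (u * y * u⁻¹ : G) = _ from e).symm ▸ (Commute.refl _).mul_right (mem_cent1.1 y.2).symm
    exact ⟨k, h.norm hy (h.clo _ hy _ (h.cj _ _ (h.sub hy)) k)⟩
  let a' : X := ⟨a, mem_cent1.2 ((Commute.refl a).mul_left ab.symm)⟩
  have iso : IsIsolatedInvolution (π a') := by
    refine ⟨orderOf_eq_prime (by rw [pow_two, ← map_mul, show a' * a' = 1 from Subtype.ext (tt_sq h.tt ha), map_one])
      fun e => ?_, fun x e => ?_⟩
    · rcases pe a' 1 (e.trans π.map_one.symm) with e | e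
      · exact tt_ne_one h.tt ha e
      · exact tt_ne_one h.tt hb (mul_left_cancel (a := a) ((one_mul _).symm.trans (e.symm.trans (mul_one a).symm)))
    · obtain ⟨x, rfl⟩ := QuotientGroup.mk'_surjective _ x
      rw [← map_inv, ← map_mul, ← map_mul] at e ⊢
      obtain ⟨k1, k2⟩ := L1 _ a' ha e.symm
      have yC : (x * a' * x⁻¹ : X).1 ∈ C := h.ofK (h.cj x a (h.sub ha)) k2
      have ez : (x * a' * x⁻¹ : X).1 * (a * b) = x * b * (x : G)⁻¹ := by
        have := (mem_cent1.1 x.2).eq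
        change x * a * (x : G)⁻¹ * (a * b) = _
        rw [mul_assoc, mul_assoc, inv_mul_eq_iff_eq_mul.2 (show a * b = x * (a * b * (x : G)⁻¹) by
          rw [← mul_assoc, ← this, mul_inv_cancel_right]), mul_assoc a b, tt_mul_mul h.tt ha, mul_assoc]
      have cz := mem_cent1.1 (x * a' * x⁻¹).2
      generalize x * a' * x⁻¹ = y at *
      have ya : Commute y.1 a := by_contra fun n => n (by
        change Commute a (y * a * (y : G)⁻¹) at k1
        rw [tt_inv h.tt yC, tt_braid h.tt yC ha n] at k1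
        exact (commute_of_third h.tt ha (Commute.refl a) k1).symm)
      have yb : Commute y.1 b := by
        have := ya.mul_right cz.symm
        rwa [tt_mul_mul h.tt ha] at this
      by_cases m : y.1 ∈ [a, b]
      · rcases List.mem_pair.1 m with m | m
        · exact congrArg π (Subtype.ext m)
        · exact (QuotientGroup.mk'_eq_mk' _).2 ⟨z, Subgroup.mem_zpowers z, Subtype.ext (by
            change y * (a * b) = a; rw [m, ab.eq, tt_mul_mul h.tt hb])⟩
      · exact absurd (by simpa [← ez] using h.cj x b (h.sub hb)) (h.not3 (clq_cons'.2 ⟨⟨yC, m, by simp [ya.symm, yb.symm]⟩, c⟩)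
          (by simp) (by simp))
  obtain ⟨o, ho, u, cu, e⟩ := H6.isolated_core_mul_cent iso (π ⟨g, mem_cent1.2 hg⟩)
  obtain ⟨u, rfl⟩ := QuotientGroup.mk'_surjective _ u
  obtain ⟨l, cl7, l7, lp⟩ := h.h7 a b c
  have lX : ∀ y ∈ l, y ∈ X := fun y hy => mem_cent1.2 (((cl7.1 y hy).2.2 a (by simp)).mul_left ((cl7.1 y hy).2.2 b (by simp)))
  let m : List X := l.pmap Subtype.mk lX
  have mm : ∀ y ∈ m, y.1 ∈ l := fun y hy => by
    obtain ⟨w, hw, rfl⟩ := List.mem_pmap.1 hy; exact hw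
  obtain ⟨hc, h2⟩ := closure_commuting (E := {x | x ∈ m.map π}) (fun x hx => by
    obtain ⟨y, hy, rfl⟩ := List.mem_map.1 hx
    rw [← map_mul, show y * y = 1 from Subtype.ext (tt_sq h.tt (cl7.1 _ (mm y hy)).1), map_one]) fun x hx x' hx' => by
      obtain ⟨y, hy, rfl⟩ := List.mem_map.1 hx
      obtain ⟨y', hy', rfl⟩ := List.mem_map.1 hx'
      exact Commute.map (show Commute y y' from Subtype.ext (cl7.comm _ (mm y hy) _ (mm y' hy'))) π
  have : IsMulCommutative (Subgroup.closure {x | x ∈ m.map π}) := ⟨⟨fun x y => Subtype.ext (hc _ x.2 _ y.2)⟩⟩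
  obtain ⟨k, hk, rfl⟩ := H1.le_of_forall_cocyclic_centralizer_le (H := (K.subgroupOf X).map π) (A := Subgroup.closure {x | x ∈ m.map π})
    Subgroup.le_normalizer_of_normal (H1.IsPGroup.coprime_card (p := 2) (fun x => ⟨1, Subtype.ext (by simpa [pow_two] using h2 _ x.2)⟩)
      (H1.coprime_card_pPrimeCore 2)) (fun B hB ⟨w, hw, eB⟩ o ho => by
    obtain ⟨y, hy, yB⟩ : ∃ y ∈ m, π y ∈ B := by_contra fun n => by
      have := (prod_mem_iff (mem_or_of_sup hc hB hw (h2 w hw) eB) hc hw (h2 w hw) (m.map π) fun x hx =>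
        ⟨Subgroup.subset_closure hx, let ⟨y, hy, e⟩ := List.mem_map.1 hx; fun k => n ⟨y, hy, e ▸ k⟩⟩).1 (by
          rw [← map_list_prod, show m.prod = 1 from Subtype.ext (by
            rw [Subgroup.val_list_prod]; simpa [m, List.map_pmap] using lp), map_one]; exact B.one_mem)
      simp [m, l7] at this; exact absurd this (by decide)
    obtain ⟨u, rfl⟩ := QuotientGroup.mk'_surjective _ o
    exact ⟨u, (L1 u y (cl7.1 _ (mm y hy)).1 (Commute.symm (ho.2 _ yB))).2, rfl⟩) ho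
  have uK := mul_mem hk (show u ∈ K.subgroupOf X from (L1 u a' ha cu).2)
  rcases pe _ (k * u) (e.trans (π.map_mul k u).symm) with e | e
  · exact (show g = _ from e) ▸ uK
  · exact (show g = _ from e) ▸ mul_mem uK (mul_mem (h.mem ha) (h.mem hb))

theorem odd [Finite G] {a b : G} (ha : a ∈ C) (hb : b ∈ D) (n : b ∉ C) :
    ∃ g, (∀ w, Commute w a → Commute w b → Commute w g) ∧ g * b * g⁻¹ = a := by
  refine (dihedral (h.sq a (h.sub ha)) (h.sq b hb)).resolve_right fun ⟨v, _, v1, c1, c2, g, e⟩ => n (h.ofK hb ?_)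
  have m : a * v ∈ D := e.elim (fun e => e ▸ h.cj g a (h.sub ha)) fun e => e ▸ h.cj g b hb
  have c := (Commute.refl a).mul_right c1
  refine h.cent2 (a := a) (b := a * v) ⟨by simp [ha, h.clo a ha _ m c], by simp [v1, c]⟩ ?_
  rw [tt_mul_mul h.tt ha]; exact c2.symm

theorem small [Finite G] {g : G} {l : List G} (c : Clq C l) (h0 : l.prod ≠ 1) (h2 : l.length ≤ 2) (m : g * l.prod * g⁻¹ ∈ K) :
    g ∈ K := by
  match l, c, h0, h2, m with
  | [], _, h0, _, _ => exact absurd rfl h0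
  | [a], c, _, _, m =>
    have ha := c.1 a (by simp)
    exact h.norm ha (h.ofK (h.cj g a (h.sub ha)) (by simpa using m))
  | [a, b], c, _, _, m =>
    obtain ⟨y, hy, k⟩ := h.fx _ m (by rw [conj_mul, c.sq h.tt]; simp)
    have := (commute_conj_iff g⁻¹ _ _).2 k
    simp only [inv_inv, mul_assoc, inv_mul_cancel_left, inv_mul_cancel, mul_one, List.prod_cons, List.prod_nil] at this
    refine inv_mem_iff.1 (h.norm hy (h.ofK (h.cj _ y (h.sub hy)) ?_))
    rw [inv_inv, mul_assoc]; exact h.cent2 c this.symm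

theorem strong [Finite G] {g w : G} (hw : w ∈ K) (w2 : w * w = 1) (w1 : w ≠ 1) (m : g * w * g⁻¹ ∈ K) : g ∈ K := by
  obtain ⟨l, c, l3, rfl⟩ := h.iv w hw w2
  obtain ⟨l', c', l3', e⟩ := h.iv _ m (by rw [conj_mul, w2]; simp)
  by_cases k : l.length ≤ 2
  · exact h.small c w1 k m
  by_cases k' : l'.length ≤ 2
  · exact inv_mem_iff.1 (h.small c' (by rw [e]; simpa using w1) k' (by rw [e]; simpa [mul_assoc] using hw))
  obtain ⟨x, hx, cx, nx⟩ := h.x3 l' c' (by omega)
  match l, c, l3, k with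
  | [_], _, _, k | [_, _], _, _, k | [], _, _, k => exact absurd (by simp) k
  | [p, q, r], c, _, _ =>
    have hp := c.1 p (by simp)
    have c2 : Clq C [q, r] := (clq_cons'.1 c).2
    by_contra n
    obtain ⟨u, u1, u2⟩ := h.odd hx (h.cj g p (h.sub hp)) fun k => n (h.norm hp k)
    have u3 := u1 _ cx.symm (e ▸ (commute_conj_iff g _ _).2 (c.comm_prod (by simp)).symm)
    have e2 : x * l'.prod = u * g * (q * r) * (u * g)⁻¹ := by
      rw [← u2, ← conj_eq_iff_commute.2 u3.symm, conj_mul, e, conj_mul]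
      simp [mul_assoc, tt_mul_mul h.tt hp]
    have k := (commute_conj_iff (u * g)⁻¹ _ _).2 ((Commute.refl x).mul_right cx)
    rw [e2] at k
    have k2 := inv_mem_iff.1 (h.norm hx (h.ofK (h.cj (u * g)⁻¹ x (h.sub hx)) (h.cent2 c2 (by simpa [mul_assoc] using k.symm))))
    refine nx ([q, r].map fun y => u * g * y * (u * g)⁻¹) (clq_iff.2 ⟨c2.nodup.map fun _ _ => conj_inj,
      List.forall_mem_map.2 fun y hy => h.nrm _ k2 y (c2.1 y hy), List.forall_mem_map.2 fun y hy =>
        List.forall_mem_map.2 fun y' hy' => (commute_conj_iff _ _ _).2 (c2.comm y hy y' hy')⟩) rfl ?_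
    rw [map_conj_prod, e2]; simp

theorem top [Finite G] : K = ⊤ := eq_top_iff.2 fun g _ => by
  obtain ⟨a, b, c⟩ := h.two
  have ha := c.1 a (by simp)
  have z2 : a * b * (a * b) = 1 := by simpa using c.sq h.tt
  rcases dihedral (tt_sq h.tt ha) (b := g * (a * b) * g⁻¹) (by rw [conj_mul, z2]; simp) with ⟨u, -, e⟩ | ⟨v, v2, v1, c1, c2, -⟩
  · refine absurd ?_ (h.not3 c le_rfl (by simp))
    have := h.cj (u * g)⁻¹ _ (e.symm ▸ h.sub ha : u * (g * (a * b) * g⁻¹) * u⁻¹ ∈ D)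
    simpa [mul_assoc] using this
  · refine h.strong (w := g⁻¹ * v * g⁻¹⁻¹) (h.cent2 c ?_) (by rw [conj_mul, v2]; simp) (fun e => v1 (_root_.conj_eq_one_iff.1 e))
      (by simpa [mul_assoc] using h.cen a ha v c1)
    simpa [mul_assoc] using (commute_conj_iff g⁻¹ _ _).2 c2
end Cp
end H28
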