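import Cfsg.Agent.H28.Tw5
import Cfsg.Agent.H28.G3

/-! Central extensions of 3-transposition groups; the Schur multiplier of `Fi23`. -/
set_option maxRecDepth 100000
namespace H28
open Cfsg H27
noncomputable section
variable {G Γ : Type*} [Group G] [Group Γ] {D : Set G} {σ : Γ →* G}

theorem ker_split (hz : σ.ker ≤ Subgroup.center Γ) {x y : Γ} (e : σ x = σ y) : ∃ k ∈ Subgroup.center Γ, σ k = 1 ∧ x = y * k :=
  have : σ (y⁻¹ * x) = 1 := by rw [map_mul, map_inv, e, inv_mul_cancel]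
  ⟨_, hz this, this, by group⟩
theorem cen_comm {k : Γ} (h : k ∈ Subgroup.center Γ) (x : Γ) : Commute x k := Subgroup.mem_center_iff.1 h x

theorem lift_comm (hs : Function.Surjective σ) (hz : σ.ker ≤ Subgroup.center Γ) (hD : IsThreeTranspositionSet D) (t : GT D 2)
    {a : G} {h : List G} (c : Clq D (a :: h)) (hp : (a :: h).prod = 1) (ho : Odd h.length) {x y : Γ} (q : Clq D [σ x, σ y]) :
    Commute x y := by
  have m : x * y * x⁻¹ * y⁻¹ ∈ Subgroup.center Γ := hz (by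
    change σ _ = 1
    simp only [map_mul, map_inv]
    rw [conj_eq_iff_commute.2 (q.comm _ (by simp) _ (by simp)), mul_inv_cancel])
  generalize hc : x * y * x⁻¹ * y⁻¹ = z at m
  have k : ∀ u v : Γ, Clq D [σ u, σ v] → u * v * u⁻¹ = z * v := fun u v q' => by
    obtain ⟨g, hg⟩ := t _ _ q q' rfl rfl
    obtain ⟨g, rfl⟩ := hs g
    simp only [List.map_cons, List.map_nil, List.cons.injEq, and_true, ← map_inv, ← map_mul] at hg
    obtain ⟨k1, a1, -, rfl⟩ := ker_split hz hg.1.symm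
    obtain ⟨k2, a2, -, rfl⟩ := ker_split hz hg.2.symm
    rw [show g * x * g⁻¹ * k1 * (g * y * g⁻¹ * k2) * (g * x * g⁻¹ * k1)⁻¹ =
      g * x * g⁻¹ * (k1 * (g * y * g⁻¹ * k2) * k1⁻¹) * (g * x * g⁻¹)⁻¹ by group, conj_eq_iff_commute.2 (cen_comm a1 _).symm,
      ← mul_assoc, mul_assoc _ k2, ← (cen_comm a2 _).eq, ← conj_eq_iff_commute.2 (cen_comm m g), ← hc]
    group
  have z2 : z * z = 1 := by
    have := conj_eq_iff_commute.2 (cen_comm (hz (show σ (x * x) = 1 by rw [map_mul, tt_sq hD (q.1 _ (by simp))])) y).symm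
    rw [show x * x * y * (x * x)⁻¹ = x * (x * y * x⁻¹) * x⁻¹ by group, k x y q,
      show x * (z * y) * x⁻¹ = x * z * x⁻¹ * (x * y * x⁻¹) by group, conj_eq_iff_commute.2 (cen_comm m x), k x y q, ← mul_assoc] at this
    exact mul_eq_right.1 this
  obtain ⟨τ, hτ⟩ := hs.hasRightInverse
  have r : ∀ l : List G, (∀ y ∈ l, Clq D [a, y]) → τ a * (l.map τ).prod * (τ a)⁻¹ = z ^ l.length * (l.map τ).prod := fun l hl => by
    induction l with
    | nil => simp
    | cons b l ih =>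
      rw [List.forall_mem_cons] at hl
      rw [List.map_cons, List.prod_cons, show τ a * (τ b * (l.map τ).prod) * (τ a)⁻¹ =
        τ a * τ b * (τ a)⁻¹ * (τ a * (l.map τ).prod * (τ a)⁻¹) by group, ih hl.2, k _ _ (by rw [hτ, hτ]; exact hl.1),
        List.length_cons, pow_succ', mul_assoc, mul_assoc, ← mul_assoc (τ b), ((cen_comm m (τ b)).pow_right _).eq, mul_assoc]
  have := r h fun y hy => c.sub ((List.singleton_sublist.2 hy).cons_cons a)
  rw [conj_eq_iff_commute.2 (by simpa using (Commute.refl (τ a)).inv_right.mul_right (cen_comm (hz (show σ (τ a * (h.map τ).prod) = 1 by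
    rw [map_mul, map_list_prod, List.map_map, hτ.comp_eq_id, List.map_id, hτ]; exact hp)) _))] at this
  obtain ⟨n, hn⟩ := ho
  rw [hn, pow_succ, pow_mul, pow_two, z2, one_pow, one_mul, eq_comm, mul_eq_right] at this
  exact conj_eq_iff_commute.1 (by rw [k x y q, this, one_mul])

/-- an equivariant lift of the class `D` to involutions -/
structure Sec (σ : Γ →* G) (D : Set G) (s : G → Γ) : Prop where
  sec : ∀ d ∈ D, σ (s d) = d
  cj : ∀ g, ∀ d ∈ D, s (σ g * d * (σ g)⁻¹) = g * s d * g⁻¹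
  sq : ∀ d ∈ D, s d * s d = 1

theorem exists_sec (hs : Function.Surjective σ) (hz : σ.ker ≤ Subgroup.center Γ) {M : Type*} [Group M] {E : Set M} (v : Lv D E)
    (t : GT D 2) {a : G} {h : List G} (c : Clq D (a :: h)) (hp : (a :: h).prod = 1) (ho : Odd h.length)
    {l : List G} (c' : Clq D l) (hl : l.prod = 1) (lo : Odd l.length) : ∃ s, Sec σ D s := by
  have hD := v.tg.1
  have ha := c.1 a (by simp)
  have B : ∀ x g : Γ, σ x ∈ D → Commute (σ x) (σ g) → Commute x g := fun x g hx e => by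
    obtain ⟨π, r⟩ := v.res _ hx
    obtain ⟨k, hk, q⟩ := (Subgroup.closure_le ((Subgroup.centralizer {x}).map σ)).2 (fun y hy => by
      obtain ⟨y, rfl⟩ := hs y
      exact ⟨y, mem_cent1.2 (lift_comm hs hz hD t c hp ho (clq_cons.2 ⟨hx, clq_cons'.2 ⟨by rwa [nb_nil], Clq.nil _⟩⟩)), rfl⟩)
      (r.gen.ge (mem_cent1.2 e))
    obtain ⟨u, b, -, rfl⟩ := ker_split hz q.symm
    exact (mem_cent1.1 hk).mul_right (cen_comm b x)
  have mk : ∀ x, σ x = a → ∃ s : G → Γ, (∀ d ∈ D, σ (s d) = d) ∧ (∀ g, ∀ d ∈ D, s (σ g * d * (σ g)⁻¹) = g * s d * g⁻¹) ∧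
      ∀ d ∈ D, s d * s d = x * x := fun x hx => by
    have : ∀ d, ∃ g : Γ, d ∈ D → σ g * a * (σ g)⁻¹ = d := fun d => by
      by_cases hd : d ∈ D
      · obtain ⟨g, e⟩ := v.cls a ha d hd
        obtain ⟨g, rfl⟩ := hs g
        exact ⟨g, fun _ => e⟩
      · exact ⟨1, fun h => absurd h hd⟩
    choose f hf using this
    refine ⟨fun d => f d * x * (f d)⁻¹, fun d hd => by simpa [hx] using hf d hd, fun g d hd => ?_, fun d _ => ?_⟩
    · have := (B x ((f (σ g * d * (σ g)⁻¹))⁻¹ * g * f d) (hx ▸ ha) (conj_eq_iff_commute.1 (by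
        rw [hx, map_mul, map_mul, map_inv, show ∀ u v w : G, u⁻¹ * v * w * a * (u⁻¹ * v * w)⁻¹ = u⁻¹ * (v * (w * a * w⁻¹) * v⁻¹) * u
          from fun _ _ _ => by group, hf d hd, ← hf _ (v.tg.2.1 _ d hd), hf _ (v.tg.2.1 _ d hd)]
        nth_rw 2 [← hf _ (v.tg.2.1 (σ g) d hd)]
        group)).symm).symm
      beta_reduce
      conv_lhs => rw [← conj_eq_iff_commute.2 this]
      group
    · rw [← conj_eq_iff_commute.2 (cen_comm (hz (show σ (x * x) = 1 by rw [map_mul, hx, tt_sq hD ha])) (f d))]; group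
  obtain ⟨x, hx⟩ := hs a
  obtain ⟨s, s1, s2, s3⟩ := mk x hx
  have x2 : σ (x * x) = 1 := by rw [map_mul, hx, tt_sq hD ha]
  have r : ∀ l : List G, Clq D l → σ (l.map s).prod = l.prod ∧ (l.map s).prod * (l.map s).prod = (x * x) ^ l.length := fun l c => by
    induction l with
    | nil => simp
    | cons b l ih =>
      obtain ⟨c1, c2⟩ := clq_cons'.1 c
      have : Commute (s b) (l.map s).prod := B _ _ (by rw [s1 b c1.1]; exact c1.1) (by
        rw [s1 b c1.1, (ih c2).1]; exact Commute.list_prod_right _ _ fun y hy => (c1.2.2 y hy).symm)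
      rw [List.map_cons, List.prod_cons, List.prod_cons, map_mul, s1 b c1.1, (ih c2).1, this.symm.mul_mul_mul_comm, s3 b c1.1,
        (ih c2).2, List.length_cons, pow_succ']
      exact ⟨rfl, rfl⟩
  obtain ⟨n, hn⟩ := lo
  have u1 := (r l c').1.trans hl
  obtain ⟨s, a1, a2, a3⟩ := mk (x * ((x * x) ^ n * ((l.map s).prod)⁻¹)) (by rw [map_mul, map_mul, map_pow, map_inv, x2, u1, hx]; simp)
  refine ⟨s, a1, a2, fun d hd => (a3 d hd).trans ?_⟩
  have k1 := (cen_comm (hz u1) x).inv_right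
  have k2 := (Commute.refl x).mul_right (Commute.refl x)
  rw [((k2.pow_right n).mul_right k1).symm.mul_mul_mul_comm, ((k1.mul_left k1).pow_left n).symm.mul_mul_mul_comm, ← mul_inv_rev,
    (r l c').2, hn]
  group

namespace Sec
variable {s : G → Γ} (h : Sec σ D s)
include h
theorem cj' {x d : G} (hx : x ∈ D) (hd : d ∈ D) : s (x * d * x⁻¹) = s x * s d * (s x)⁻¹ := by rw [← h.cj _ d hd, h.sec x hx]
theorem comm {x d : G} (hx : x ∈ D) (hd : d ∈ D) (c : Commute x d) : Commute (s x) (s d) :=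
  conj_eq_iff_commute.1 (by rw [← h.cj' hx hd, conj_eq_iff_commute.2 c])
theorem cube (hD : IsThreeTranspositionSet D) {x d : G} (hx : x ∈ D) (hd : d ∈ D) (c : (x * d) ^ 3 = 1) : (s x * s d) ^ 3 = 1 := by
  have a := h.cj' hx hd
  have b := h.cj' hd hx
  rw [tt_inv hD hx, inv_eq_of_mul_eq_one_left (h.sq x hx)] at a
  rw [tt_inv hD hd, inv_eq_of_mul_eq_one_left (h.sq d hd), ← braid_of_cube (tt_sq hD hx) (tt_sq hD hd) c] at b
  exact cube_of_braid (h.sq x hx) (h.sq d hd) (a.symm.trans b)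
theorem map {X : List G} (hX : ∀ y ∈ X, y ∈ D) : (X.map s).map σ = X := by
  rw [List.map_map]; exact (List.map_congr_left fun y hy => h.sec y (hX y hy)).trans (List.map_id X)
theorem ev {X : List G} (hX : ∀ y ∈ X, y ∈ D) (w : List Nat) : σ (ev (X.map s) w) = ev X w := by rw [← ev_map, h.map hX]
omit h in
theorem getD {X : List G} {i : Nat} (hi : i < X.length) : (X.map s).getD i 1 = s (X.getD i 1) := by
  rw [List.getD_eq_getElem _ _ hi, List.getD_eq_getElem _ _ (by simpa using hi), List.getElem_map]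
theorem rels (hD : IsThreeTranspositionSet D) {X : List G} (hX : ∀ y ∈ X, y ∈ D) {R : List (List Nat)} (r : Rels X R) {k : Nat}
    (hk : X.length = k) (c : ∀ w ∈ R, ∃ i < k, w = [i, i] ∨ ∃ j < k, w = pwW 2 [i, j] ∨ w = pwW 3 [i, j]) : Rels (X.map s) R :=
  fun w hw => by
    have m : ∀ i < k, X.getD i 1 ∈ D := fun i hi => by
      rw [List.getD_eq_getElem _ _ (hk ▸ hi)]; exact hX _ (List.getElem_mem _)
    have a := r w hw
    obtain ⟨i, hi, rfl | ⟨j, hj, rfl | rfl⟩⟩ := c w hw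
    · rw [ev_cons, ev_single, getD (hk ▸ hi), h.sq _ (m i hi)]
    all_goals rw [ev_pwW, ev_cons, ev_single] at a ⊢; rw [getD (hk ▸ hi), getD (hk ▸ hj)]
    · rw [(h.comm (m i hi) (m j hj) (commute_of_sq (tt_sq hD (m i hi)) (tt_sq hD (m j hj)) a)).mul_pow, pow_two, pow_two,
        h.sq _ (m i hi), h.sq _ (m j hj), one_mul]
    · exact h.cube hD (m i hi) (m j hj) a
theorem cjW (hc : ∀ g : G, ∀ d ∈ D, g * d * g⁻¹ ∈ D) (hD : IsThreeTranspositionSet D) {X : List G} (hX : ∀ y ∈ X, y ∈ D)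
    (w : List Nat) {i : Nat} (hi : i < X.length) : H28.ev (X.map s) (cjW w i) = s (H28.ev X (cjW w i)) ∧ H28.ev X (cjW w i) ∈ D := by
  have m : X.getD i 1 ∈ D := by rw [List.getD_eq_getElem _ _ hi]; exact hX _ (List.getElem_mem _)
  rw [ev_cjW (List.forall_mem_map.2 fun y hy => h.sq y (hX y hy)), ev_cjW fun y hy => tt_sq hD (hX y hy), getD hi, ← h.cj _ _ m,
    h.ev hX]
  exact ⟨rfl, hc _ _ m⟩
/-- the hexagon relation lifts if the hexagon group is inverted -/
theorem hex (hs : Function.Surjective σ) (hz : σ.ker ≤ Subgroup.center Γ)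
    (hc : ∀ g : G, ∀ d ∈ D, g * d * g⁻¹ ∈ D) (hD : IsThreeTranspositionSet D) {X : List G} (hX : ∀ y ∈ X, y ∈ D) (hl : X.length = 6)
    (r : Rels X (hx_R ++ g3_R)) {g : G} (hg : X.map (fun y => g * y * g⁻¹) =
      [[0], [1], [2], [3], [4], H28.cjW (H28.cjW [4, 3, 2, 1] 0) 5].map (H28.ev X)) :
    H28.ev (X.map s) (pwW 4 [5, 2, 3, 0, 1, 4]) = 1 := by
  have r1 := h.rels hD hX (R := g3_R.take 21) (fun w hw => r.right w (List.mem_of_mem_take hw)) hl (by decide)
  have a := h.cjW hc hD hX [4, 3, 2, 1] (i := 0) (by omega)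
  have m : X.getD 5 1 ∈ D := by rw [List.getD_eq_getElem _ _ (by omega)]; exact hX _ (List.getElem_mem _)
  have r2 : Rels (X.map s) g3_R := (show g3_R.take 21 ++ [pwW 3 (H28.cjW [4, 3, 2, 1] 0 ++ [5])] = g3_R by decide) ▸
    r1.append (List.forall_mem_singleton.2 (by
      have := r.right (pwW 3 (H28.cjW [4, 3, 2, 1] 0 ++ [5])) (by decide)
      rw [ev_pwW, ev_append, ev_single] at this ⊢
      rw [a.1, getD (by omega)]
      exact h.cube hD a.2 m this))
  have r3 := (g3_univ.par (k := 6) (k' := 6) (ds := []) 8 [] (W := [pwW 3 (pwW 4 [5, 2, 3, 0, 1, 4]), pwW 4 [5, 2, 3, 0, 1, 4] ++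
    expand [[0], [1], [2], [3], [4], H28.cjW (H28.cjW [4, 3, 2, 1] 0) 5] (pwW 4 [5, 2, 3, 0, 1, 4])]) (by decide +kernel))
    _ _ (by simpa using hl) r2
  obtain ⟨g, rfl⟩ := hs g
  have e : (X.map s).map (MulAut.conj g).toMonoidHom =
      [[0], [1], [2], [3], [4], H28.cjW (H28.cjW [4, 3, 2, 1] 0) 5].map (H28.ev (X.map s)) := by
    rw [List.map_map, ← List.map_congr_left (f := s ∘ fun y => σ g * y * (σ g)⁻¹) (g := (MulAut.conj g).toMonoidHom ∘ s)
      fun y hy => h.cj g y (hX y hy), ← List.map_map, hg]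
    simp only [List.map_cons, List.map_nil, ev_single]
    rw [(h.cjW hc hD hX _ (by omega)).1, getD (by omega), getD (by omega), getD (by omega), getD (by omega), getD (by omega)]
  have k := r3 _ (List.mem_cons_of_mem _ List.mem_cons_self)
  have k3 := r3 _ List.mem_cons_self
  rw [ev_append, ← ev_expand, ← e, ev_map] at k
  rw [ev_pwW] at k3
  generalize hZ : H28.ev (X.map s) (pwW 4 [5, 2, 3, 0, 1, 4]) = z at k k3
  have : σ z = 1 := by rw [← hZ, h.ev hX]; exact r.left _ (by decide)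
  rw [show (MulAut.conj g).toMonoidHom z = z from conj_eq_iff_commute.2 (cen_comm (hz this) g)] at k
  rwa [pow_succ, pow_two, k, one_mul] at k3
end Sec

theorem ev_map_mul {X : List Γ} {z : Γ} (hz : z ∈ Subgroup.center Γ) {w : List Nat} (h : ∀ i ∈ w, i < X.length) :
    ev (X.map (· * z)) w = ev X w * z ^ w.length := by
  induction w with
  | nil => simp [ev_nil]
  | cons i w ih =>
    rw [List.forall_mem_cons] at h
    rw [ev_cons, ev_cons, ih h.2, List.getD_eq_getElem _ _ h.1, List.getD_eq_getElem _ _ (by simpa using h.1), List.getElem_map,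
      List.length_cons, pow_succ', mul_assoc, mul_assoc, ← mul_assoc z, ← (cen_comm hz _).eq, mul_assoc]
theorem ker_bot_of_sec (hz : σ.ker ≤ Subgroup.center Γ) (hc : σ.ker ≤ commutator Γ) (π : G →* Γ) (e : ∀ x, σ (π x) = x) :
    σ.ker = ⊥ := eq_bot_iff.2 fun k hk => by
  obtain ⟨m, rfl⟩ : k ∈ π.range := (Subgroup.commutator_le.2 fun x _ y _ => by
    obtain ⟨a, a1, -, a2⟩ := ker_split hz (e (σ x)).symm
    obtain ⟨b, b1, -, b2⟩ := ker_split hz (e (σ y)).symm
    refine ⟨σ x * σ y * (σ x)⁻¹ * (σ y)⁻¹, ?_⟩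
    rw [map_mul, map_mul, map_mul, map_inv, map_inv]
    generalize π (σ x) = u at *
    generalize π (σ y) = v at *
    rw [a2, b2, commutatorElement_def, show u * a * (v * b) * (u * a)⁻¹ = u * (a * (v * b) * a⁻¹) * u⁻¹ by group,
      conj_eq_iff_commute.2 (cen_comm a1 _).symm, show u * (v * b) * u⁻¹ * (v * b)⁻¹ = u * v * (b * u⁻¹ * b⁻¹) * v⁻¹ by group,
      conj_eq_iff_commute.2 (cen_comm b1 _).symm]) (hc hk)
  rw [← e m, show σ (π m) = 1 from hk, map_one]; exact one_mem _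

def sm23P : List Pt := [(1, []), (2, []), (3, []), (4, []), (5, []), (6, []), (7, []), (8, []), (9, []), (10, []),
  (3, [7, 6, 5, 4, 9, 8, 7, 6, 5, 4])]
def sm23f : List (List Nat) := [[9], [8], [3], [2], [1], [10], [4], [5]]
def sm23g : List Nat := prW [(8, []), (0, []), (7, []), (2, [5, 4, 9, 10, 3, 4, 9, 5, 4, 3])]
theorem oct23 : ∃ a h, Clq E23 (a :: h) ∧ (a :: h).prod = 1 ∧ Odd h.length := by
  obtain ⟨d, hd⟩ := m24.ne
  obtain ⟨π, r⟩ := lv24.res d hd
  obtain ⟨h, c, a, b⟩ := m24.rl8.avoid lv24.tg.2.1 (l := [d]) (clq_cons'.2 ⟨by rwa [nb_nil], Clq.nil _⟩) lv24.gt_one (by simp)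
  obtain ⟨x, h, rfl⟩ := List.exists_cons_of_length_eq_add_one a
  refine ⟨_, _, r.fi.clq c, ?_, by rw [List.length_map, show h.length = 7 by simpa using a]; decide⟩
  rw [← List.map_cons, ← r.prod fun y hy => (mem_nb1.1 (c.1 y hy)).2.2, b, r.one]
theorem schur23 {Γ : Type} [Group Γ] {σ : Γ →* Spor.Fi23} (h : IsStemExtension σ) : σ.ker = ⊥ := by
  obtain ⟨hs, hz, hc⟩ := h
  obtain ⟨a, h, c1, c2, c3⟩ := oct23
  obtain ⟨l, t, c4, c5, -, c6⟩ := m23.rl7
  obtain ⟨s, S⟩ := exists_sec hs hz lv23 (m23.gts 2 (by norm_num)) c1 c2 c3 (c4.sub (List.sublist_append_left l t)) c6 (by rw [c5]; decide)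
  have rl : ∀ f R : List (List Nat), allL (expL (expL (mapL ptW sm23P) f) R) t23.oneChk = true →
      Rels (f.map (ev (sm23P.map (pv x23)))) R := fun f R e => by
    have := rels_expL.1 (show Rels x23 _ from fun w hw => fm23.one w ((allL_iff _ _).1 e w hw))
    rw [expL, mapL_eq, List.map_map] at this
    rwa [List.map_congr_left (g := ev (sm23P.map (pv x23))) fun w _ => by
      rw [Function.comp_apply, ← ev_expand, mapL_eq, List.map_map]; rfl] at this
  generalize hX : sm23P.map (pv x23) = X at rl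
  have mX : ∀ y ∈ X, y ∈ E23 := hX ▸ List.forall_mem_map.2 fun p hp => t23M.pv_mem ((by decide : ∀ p ∈ sm23P, p.1 < 11) p hp)
  have lX : X.length = 11 := hX ▸ rfl
  have m1 : ∀ f : List (List Nat), (∀ w ∈ f, ∃ i < 11, w = [i]) → (∀ y ∈ f.map (ev X), y ∈ E23) ∧
      (f.map (ev X)).map s = f.map (ev (X.map s)) := fun f hf => by
    refine ⟨List.forall_mem_map.2 fun w hw => ?_, ?_⟩
    · obtain ⟨i, hi, rfl⟩ := hf w hw
      rw [ev_single, List.getD_eq_getElem _ _ (lX ▸ hi)]; exact mX _ (List.getElem_mem _)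
    · rw [List.map_map]
      refine List.map_congr_left fun w hw => ?_
      obtain ⟨i, hi, rfl⟩ := hf w hw
      rw [Function.comp_apply, ev_single, ev_single, Sec.getD (lX ▸ hi)]
  have a6 := m1 (sm23f.take 6) (by decide)
  have a8 := m1 sm23f (by decide)
  have a10 := m1 (gensW 10) (by decide)
  have h1 := S.hex hs hz lv23.tg.2.1 m23.tt a6.1 rfl (rl _ _ (by decide +kernel)) (g := ev x23 sm23g) (by
    have e : ∀ p q : Pt, p.1 < 11 → q.1 < 11 → t23.pi (p.1, cat sm23g p.2) = t23.pi q →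
        ev x23 sm23g * pv x23 p * (ev x23 sm23g)⁻¹ = pv x23 q := fun p q a b e => by
      rw [← pv_word t23M.sq, ← t23M.pi_eq b, ← e, t23M.pi_eq (p := (p.1, cat sm23g p.2)) a]
    have e' : ∀ w, ev X w = ev x23 (expand (mapL ptW sm23P) w) := fun w => by rw [← ev_expand, mapL_eq, List.map_map, ← hX]; rfl
    simp only [funext (ev_expand X _)]
    simp only [sm23f, List.take, List.map_cons, List.map_nil, List.cons.injEq, and_true, e']
    exact ⟨e (10, []) (10, []) (by decide) (by decide) (by decide +kernel), e (9, []) (9, []) (by decide) (by decide) (by decide +kernel),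
      e (4, []) (4, []) (by decide) (by decide) (by decide +kernel), e (3, []) (3, []) (by decide) (by decide) (by decide +kernel),
      e (2, []) (2, []) (by decide) (by decide) (by decide +kernel),
      e (3, [7, 6, 5, 4, 9, 8, 7, 6, 5, 4]) (3, [2, 3, 4, 9, 10, 9, 4, 3, 2, 7, 6, 5, 4, 9, 8, 7, 6, 5, 4]) (by decide) (by decide)
        (by decide +kernel)⟩)
  rw [a6.2, ev_expand] at h1
  have h2 := S.rels m23.tt a8.1 (R := q2_R.take 36) (rl _ _ (by decide +kernel)) (k := 8) rfl (by decide)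
  have h3 := S.rels m23.tt a10.1 (R := fi23_R.take 55) (rl _ _ (by decide +kernel)) (k := 10) rfl (by decide)
  rw [a8.2] at h2
  rw [a10.2] at h3
  have h4 := (q2_univ.par (k := 8) (k' := 8) (ds := []) 10 [] (W := [pwW 10 [2, 3, 4, 2, 6, 7, 2, 1, 0]]) (by decide +kernel)) _ _ rfl
    ((show q2_R.take 36 ++ [pwW 4 [5, 2, 3, 0, 1, 4]] = q2_R by decide) ▸ h2.append (List.forall_mem_singleton.2 (by
      rw [ev_expand]; exact h1))) _ List.mem_cons_self
  rw [ev_expand] at h4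
  generalize hZ : (gensW 10).map (ev (X.map s)) = Z at h3
  have h5 : ev Z (pwW 10 [3, 2, 1, 3, 4, 5, 3, 8, 9]) = 1 := by rw [← hZ, ev_expand]; exact h4
  have a7 := m1 [[5], [4], [3], [2], [1], [0], [8]] (by decide)
  have h7 := (we7_univ.par (k := 7) (k' := 7) (ds := []) 6 [] (W := [pwW 2 (pwW 9 [5, 4, 3, 2, 1, 0, 6])]) (by decide +kernel)) _ _ rfl
    (a7.2 ▸ S.rels m23.tt a7.1 (R := we7_R) (rl _ _ (by decide +kernel)) (k := 7) rfl (by decide)) _ List.mem_cons_self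
  have h6 : ev Z (pwW 9 [0, 1, 2, 3, 4, 5, 8]) ^ 2 = 1 := by rw [← ev_pwW, ← hZ, ev_expand]; rw [ev_expand] at h7; exact h7
  have sZ : Z.map σ = fi23X := by
    rw [← hZ, ← a10.2, S.map a10.1, ← hX]
    simp only [gensW, sm23P, List.range, List.range.loop, List.map_cons, List.map_nil, ev_single, pv, ptW, cjW, cat, revW]
    rfl
  have hw : σ (ev Z (pwW 9 [0, 1, 2, 3, 4, 5, 8])) = 1 := by rw [← ev_map, sZ]; exact fi23B.rels _ (by decide)
  generalize hu : ev Z (pwW 9 [0, 1, 2, 3, 4, 5, 8]) = u at h6 hw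
  have lZ : Z.length = 10 := hZ ▸ rfl
  obtain ⟨π, hπ⟩ := fi23B.hom (ys := Z.map (· * u)) ((List.length_map _).trans lZ) fun w hw' => by
    obtain ⟨k1, k2⟩ := (by decide +kernel : ∀ w ∈ fi23_R, (∀ i ∈ w, i < 10) ∧ (w = pwW 9 [0, 1, 2, 3, 4, 5, 8] ∨
      w.length % 2 = 0 ∧ w ∈ fi23_R.take 55 ++ [pwW 10 [3, 2, 1, 3, 4, 5, 3, 8, 9]])) w hw'
    rw [ev_map_mul (hz hw) (lZ ▸ k1)]
    rcases k2 with rfl | k2
    · rw [hu, ← pow_succ', show (pwW 9 [0, 1, 2, 3, 4, 5, 8]).length + 1 = 2 * 32 by decide, pow_mul, h6, one_pow]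
    · rw [h3.append (List.forall_mem_singleton.2 h5) w k2.2, ← Nat.div_add_mod w.length 2, k2.1, add_zero, pow_mul, h6, one_pow,
        one_mul]
  refine ker_bot_of_sec hz hc π fun x => (cl_le (H := (σ.comp π).eqLocus (MonoidHom.id _)) fun y hy => ?_)
    (fi23B.cl_top.ge (Subgroup.mem_top x))
  have : fi23X.map (σ ∘ π) = fi23X.map id := by
    rw [← List.map_map, show fi23X.map π = _ from hπ, List.map_map, List.map_id, ← sZ]
    exact List.map_congr_left fun y _ => by simp [hw]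
  exact List.map_inj_left.1 this y hy
end
end H28
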