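import Cfsg.Agent.H29.U0
import Cfsg.Agent.H23.Qa
/-! The abstract part of the last relation for groups of Janko-four type. -/
set_option autoImplicit false
namespace H28.H12a
open Subgroup H29.U
variable {G : Type*} [Group G]
theorem z2 {z a : G} (o : orderOf z = 2) (h : a ∈ zpowers z) : a = 1 ∨ a = z := by
  obtain ⟨n, rfl⟩ := h
  have e : z ^ (2 : ℤ) = 1 := by rw [zpow_ofNat, ← o, pow_orderOf_eq_one]
  obtain ⟨k, rfl | rfl⟩ := Int.even_or_odd' n
  · left; simp only [zpow_mul, e, one_zpow]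
  · right; simp only [zpow_add, zpow_mul, e, one_zpow, one_mul, zpow_one]
theorem core [Finite G] {z r t t2 ω w g s ga gb : G} {R N : Subgroup G} (X : XS z R N) (hr : r ∈ N)
    (tt : t * t = 1) (tz : Commute t z) (he : r * t * r⁻¹ * (r⁻¹ * t * r * z) * t = ω) (hω : ω = 1 ∨ ω = w)
    (ww : w * w = 1) (wt : Commute w t) (wz : Commute w z) (gz : Commute g z) (gt : g * t * g⁻¹ = t2)
    (hs : ∀ p, p = w * (t * (g * w * g⁻¹) * t) → p * (t * t2 * p * t2 * t) = s) (sz : Commute s z)
    (az : Commute ga z) (a2 : Commute ga t2) (bz : Commute gb z) (b2 : Commute gb t2)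
    (ln : ga * t * ga⁻¹ * (gb * t * gb⁻¹) = t)
    (k1 : s * z * (t * t2) ^ 2 ≠ z) (k2 : s * z * (t * t2) ^ 2 ≠ s * z) : s * z * (t * t2) ^ 2 = 1 := by
  have zz : z * z = 1 := by rw [← sq, ← X.o, pow_orderOf_eq_one]
  have ti : t⁻¹ = t := inv_eq_of_mul_eq_one_right tt
  have zi : z⁻¹ = z := inv_eq_of_mul_eq_one_right zz
  have t22 : t2 * t2 = 1 := by
    rw [← gt]
    calc _ = g * (t * t) * g⁻¹ := by group
      _ = 1 := by rw [tt]; group
  have tN : t ∈ normalizer (N : Set G) := X.nN (mem_centralizer_singleton_iff.2 tz)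
  have gR : g ∈ normalizer (R : Set G) := X.nR (mem_centralizer_singleton_iff.2 gz)
  have e1 : r * (t * (r⁻¹ * r⁻¹) * t⁻¹) * r = ω * t * z := by
    rw [← he, ti, mul_assoc _ t t, tt, mul_one, mul_assoc _ _ z, mul_assoc _ z z, zz]; group
  have m1 : ω * t * z ∈ N := e1 ▸ mul_mem (mul_mem hr ((mem_normalizer_iff.1 tN _).1 (mul_mem (inv_mem hr) (inv_mem hr)))) hr
  have c : ω * ω = 1 ∧ Commute ω t ∧ Commute ω z := by
    rcases hω with rfl | rfl
    · simp
    · exact ⟨ww, wt, wz⟩
  have s1 : (ω * t * z) ^ 2 = 1 := by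
    rw [(c.2.2.mul_left tz).mul_pow, c.2.1.mul_pow, sq, sq, sq, c.1, tt, zz]; simp
  have m2 : ω * t * z ∈ R := H23.Qa.mem_R X.RN (X.NC.trans X.nR) X.cR X.cN m1 (by
    rw [show 4 = 2 * 2 from rfl, pow_mul, s1, one_pow])
  have m3 : ω * t ∈ R := by simpa [mul_assoc, zz] using mul_mem m2 X.zR
  have m4 : g * ω * g⁻¹ * t2 ∈ R := by
    have := (mem_normalizer_iff.1 gR _).1 m3
    rw [← gt]; convert this using 1; group
  have q := z2 X.o (X.sq _ (mul_mem m3 m4))
  rcases hω with rfl | rfl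
  · simp only [mul_one, one_mul, mul_inv_cancel] at q
    rcases q with q | q
    · exact absurd (by rw [sq, q, mul_one]) k2
    · exfalso
      have f : t2 * t * t2 = t * z := by rw [← q, ← mul_assoc, ← mul_assoc, ← mul_assoc, tt, one_mul]
      have cj : ∀ {a : G}, Commute a z → Commute a t2 → t2 * (a * t * a⁻¹) * t2 = a * t * a⁻¹ * z := fun {a} h1 h2 => by
        calc _ = (t2 * a) * t * (a⁻¹ * t2) := by group
          _ = a * (t2 * t * t2) * a⁻¹ := by rw [← h2.eq, h2.inv_left.eq]; group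
          _ = _ := by rw [f, mul_assoc _ a⁻¹, h1.inv_left.eq]; group
      have bz' : Commute (gb * t * gb⁻¹) z := (bz.mul_left tz).mul_left bz.inv_left
      have : t * z = t := by
        calc t * z = t2 * (ga * t * ga⁻¹) * (t2 * t2) * (gb * t * gb⁻¹) * t2 := by
              rw [t22, mul_one, mul_assoc t2, ln, f]
          _ = (t2 * (ga * t * ga⁻¹) * t2) * (t2 * (gb * t * gb⁻¹) * t2) := by simp only [mul_assoc]
          _ = ga * t * ga⁻¹ * (z * (gb * t * gb⁻¹)) * z := by rw [cj az a2, cj bz b2]; simp only [mul_assoc]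
          _ = t := by rw [← bz'.eq, ← mul_assoc, ln, mul_assoc, zz, mul_one]
      have o := X.o
      rw [mul_eq_left.1 this, orderOf_one] at o
      exact absurd o (by norm_num)
  · have h := hs _ rfl
    generalize g * ω * g⁻¹ = v at h q
    have e : ω * t * (v * t2) * (ω * t * (v * t2)) = s * (t * t2) ^ 2 := by
      rw [← h, sq]
      have a : ∀ u, t * (t * u) = u := fun u => by rw [← mul_assoc, tt, one_mul]
      have b : ∀ u, t2 * (t2 * u) = u := fun u => by rw [← mul_assoc, t22, one_mul]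
      simp only [mul_assoc, a, b]
    rw [e] at q
    rw [sz.eq, mul_assoc] at k1 ⊢
    rcases q with q | q
    · exact absurd (by rw [q, mul_one]) k1
    · rw [q, zz]
end H28.H12a
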