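import Cfsg.Agent.H28.LyQ
/-! The relations among the Carmichael generators in the Lyons group. -/
set_option maxRecDepth 100000
namespace H28
open H27
theorem lyq_car : ∃ y : Fin 11 → Cfsg.Spor.Ly, y 8 = ev lyX [0, 3, 1, 2] ∧
    (∀ i, i ≠ 0 → i ≠ 1 → Commute (y i) (ev lyX [0, 0, 0, 0])) ∧ (∀ i, i ≠ 0 → i ≠ 1 → y i ^ 3 = 1) ∧
    ∀ i j, i ≠ 0 → i ≠ 1 → j ≠ 0 → j ≠ 1 → i ≠ j → (y i * y j) ^ 2 = ev lyX [0, 0, 0, 0] := by
  have r : ∀ w, Dm.memW lyqR w = true → ev (lyqW.map (ev lyX)) w = 1 := fun w hw => lyq_rels w (Dm.memW_mem hw)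
  have e : (lyqW.map (ev lyX)).getD 9 1 = ev lyX [0, 0, 0, 0] := rfl
  have e' : (lyqW.map (ev lyX)).getD ((8 : Fin 11) - 2) 1 = ev lyX [0, 3, 1, 2] := rfl
  generalize ev lyX [0, 0, 0, 0] = t at e
  generalize lyqW.map (ev lyX) = ys at r e e'
  have t2 : t * t = 1 := by simpa only [ev_cons, ev_nil, e, mul_one] using r [9, 9] (by decide +kernel)
  have h3 : ∀ i : Fin 11, i ≠ 0 → i ≠ 1 → ys.getD (i - 2) 1 ^ 3 = 1 := fun i a b => by
    simpa only [ev_cons, ev_nil, mul_one, pow_succ, pow_zero, one_mul, mul_assoc] using r [i - 2, i - 2, i - 2]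
      ((by decide +kernel : ∀ i : Fin 11, i ≠ 0 → i ≠ 1 → Dm.memW lyqR [i - 2, i - 2, i - 2] = true) i a b)
  have hc : ∀ i : Fin 11, i ≠ 0 → i ≠ 1 → Commute (ys.getD (i - 2) 1) t := fun i a b => by
    have h1 := r [i - 2, 9, i - 2, i - 2, 9]
      ((by decide +kernel : ∀ i : Fin 11, i ≠ 0 → i ≠ 1 → Dm.memW lyqR [i - 2, 9, i - 2, i - 2, 9] = true) i a b)
    have h2 := h3 i a b
    simp only [ev_cons, ev_nil, e, mul_one] at h1
    generalize ys.getD (i - 2) 1 = y at h1 h2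
    have h4 : y * y = y⁻¹ := eq_inv_of_mul_eq_one_left (by rw [← h2, pow_succ, sq])
    rw [← mul_assoc y y, h4, ← mul_assoc, ← mul_assoc, mul_eq_one_iff_eq_inv, inv_eq_of_mul_eq_one_right t2,
      mul_inv_eq_iff_eq_mul] at h1
    exact h1
  refine ⟨fun i => ys.getD (i - 2) 1, e', hc, h3, fun i j a b c d n => ?_⟩
  have k : ∀ i j, Dm.memW lyqR [i, j, i, j, 9] = true → (ys.getD i 1 * ys.getD j 1) ^ 2 = t := fun i j hw => by
    have h1 := r _ hw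
    simp only [ev_cons, ev_nil, e, mul_one] at h1
    rw [← inv_eq_of_mul_eq_one_right t2, eq_inv_iff_mul_eq_one]
    simpa only [sq, mul_assoc] using h1
  rcases (by decide +kernel : ∀ i j : Fin 11, i ≠ 0 → i ≠ 1 → j ≠ 0 → j ≠ 1 → i ≠ j →
    Dm.memW lyqR [i - 2, j - 2, i - 2, j - 2, 9] = true ∨ Dm.memW lyqR [j - 2, i - 2, j - 2, i - 2, 9] = true)
    i j a b c d n with h1 | h1
  · exact k _ _ h1
  · rw [show ∀ x y : Cfsg.Spor.Ly, (x * y) ^ 2 = x * (y * x) ^ 2 * x⁻¹ from fun x y => by simp [sq, mul_assoc], k _ _ h1,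
      (hc i a b).eq, mul_inv_cancel_right]
end H28
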