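import Cfsg.Agent.H28.Mt1

/-! From the residues of a class of involutions to a level of the Fischer tower. -/
namespace H28
open Cfsg H27
universe u
variable {G : Type u} {M N : Type*} [Group G] [Group M] [Group N]

theorem FIso.tt {A : Set G} {B : Set M} {σ : G → M} (h : FIso A B σ) (t : IsThreeTranspositionSet B)
    (o : ∀ x ∈ A, orderOf x = 2) : IsThreeTranspositionSet A := ⟨o, fun x hx y hy => by
  have s : ∀ x ∈ A, x * x = 1 := fun x hx => by rw [← pow_two, ← o x hx, pow_orderOf_eq_one]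
  by_cases c : Commute x y
  · exact Or.inl (sq_of_commute (s x hx) (s y hy) c)
  · have := h.inj (h.clo x hx y hy) (h.clo y hy x hx) (by
      rw [h.cj x hx y hy, h.cj y hy x hx, tt_inv t (h.mem hx), tt_inv t (h.mem hy),
        tt_braid t (h.mem hx) (h.mem hy) (mt (h.comm hx hy).1 c)])
    rw [inv_eq_of_mul_eq_one_right (s x hx), inv_eq_of_mul_eq_one_right (s y hy)] at this
    exact Or.inr (cube_of_braid (s x hx) (s y hy) this)⟩

/-- the good subsets of a residue meet the traces -/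
def Dia (A : Set G) (k : Nat) : Prop :=
  ∀ x ∈ A, ∀ b ∈ A, ¬ Commute x b → ∀ S, Good (Nb A [x]) k S → S.Nonempty → ∃ y ∈ S, Commute b y
theorem FIso.dia {A : Set G} {B : Set M} {σ : G → M} (h : FIso A B σ) {k : Nat} (t : Dia B k) : Dia A k :=
  fun x hx b hb n S g ne => by
    obtain ⟨_, ⟨y, hy, rfl⟩, c⟩ := t _ (h.mem hx) _ (h.mem hb) (mt (h.comm hx hb).1 n) _ ((h.nb1 hx).good g) (ne.image σ)
    exact ⟨y, hy, (h.comm hb (g.sub hy).1).1 c⟩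

/-- a class of involutions with known residues -/
structure Lw (D : Set G) (U : Set N) : Prop where
  cj : ∀ g : G, ∀ x ∈ D, g * x * g⁻¹ ∈ D
  ord : ∀ x ∈ D, orderOf x = 2
  cls : ∀ a ∈ D, ∀ b ∈ D, ∃ g, g * a * g⁻¹ = b
  res : ∀ d ∈ D, ∃ π, Res D d U π
/-- the properties of the residue -/
structure Ru (U : Set N) (k : Nat) : Prop where
  tt : IsThreeTranspositionSet U
  cen : Subgroup.center N = ⊥
  cls : ∀ a ∈ U, ∀ b ∈ U, ∃ g, g * a * g⁻¹ = b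
  pg : PG U
  loc : LocA k U
  dia : Dia U k
  ne : U.Nonempty
/-- the properties of the component -/
structure Fn (C : Set G) : Prop where
  fx : FX C
  iv : IV C 3
  nr : NR C 5
  gt : GT C 2
  rl : ∃ m, 2 ≤ m ∧ Rl C 7 m
  x3 : ∀ l, Clq C l → l.length = 3 → ∃ e ∈ C, Commute e l.prod ∧ ∀ l', Clq C l' → l'.length = 2 → e * l.prod ≠ l'.prod

namespace Lw
variable {D : Set G} {U : Set N} {k : Nat} (h : Lw D U) (u : Ru U k)
include h u
theorem tt {x : G} (hx : x ∈ D) : IsThreeTranspositionSet (Nb D [x]) :=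
  let ⟨_, r⟩ := h.res x hx; r.fi.tt u.tt fun y hy => h.ord y hy.1
theorem diam {a c e b : G} (ha : a ∈ D) (hc : c ∈ D) (he : e ∈ D) (hb : b ∈ D) (ac : Commute a c) (ce : Commute c e)
    (eb : Commute e b) : ∃ w ∈ D, Commute a w ∧ Commute w b := by
  by_cases ae : Commute e a
  · exact ⟨e, he, ae.symm, eb⟩
  by_cases cb : Commute c b
  · exact ⟨c, hc, ac, cb⟩
  have m1 : a ∈ Nb D [c] := mem_nb1.2 ⟨ha, fun q => ae (q ▸ ce.symm), ac.symm⟩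
  have m2 : e ∈ Nb D [c] := mem_nb1.2 ⟨he, fun q => cb (q ▸ eb), ce⟩
  have m3 : c ∈ Nb D [e] := mem_nb1.2 ⟨hc, fun q => cb (q ▸ eb), ce.symm⟩
  have m4 : b ∈ Nb D [e] := mem_nb1.2 ⟨hb, fun q => cb (q ▸ ce), eb⟩
  obtain ⟨π, r⟩ := h.res c hc
  obtain ⟨ρ, s⟩ := h.res e he
  have g := good_trace r.fi.clo (r.fi.locA u.loc) m2 m1 ae
  obtain ⟨w, hw, c1, c2⟩ := r.fi.cn u.pg.cn e m2 a m1 ae
  have ne : {y | y ∈ Nb (Nb D [c]) [e] ∧ Commute a y}.Nonempty := ⟨w, mem_nb1.2 ⟨hw, fun q => ae (q ▸ c2), c1.symm⟩, c2.symm⟩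
  rw [nb_comm] at g ne
  obtain ⟨y, hy, c3⟩ := s.fi.dia u.dia c m3 b m4 cb _ g ne
  exact ⟨y, hy.1.1.1, hy.2, c3.symm⟩

theorem top [Finite G] {d : G} (hd : d ∈ D) (key : ∀ (K : Subgroup G) (C : Set K), Lv C U → C.Nonempty → Fn C) : Lv D U := by
  let C := {y | y ∈ D ∧ ∃ w ∈ D, Commute d w ∧ Commute w y}
  have sq : ∀ x ∈ D, x * x = 1 := fun x hx => by rw [← pow_two, ← h.ord x hx, pow_orderOf_eq_one]
  have dC : d ∈ C := ⟨hd, d, hd, Commute.refl d, Commute.refl d⟩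
  have clo : ∀ x ∈ C, ∀ y ∈ D, Commute x y → y ∈ C := fun x ⟨hx, w, hw, c1, c2⟩ y hy c => ⟨hy, h.diam u hd hw hx hy c1 c2 c⟩
  have com : ∀ x ∈ C, ∀ y ∈ C, ∃ w ∈ C, Commute w x ∧ Commute w y := fun x hx y ⟨hy, w, hw, c1, c2⟩ => by
    obtain ⟨v, hv, c3, c4⟩ := hx.2
    obtain ⟨t, ht, c5, c6⟩ := h.diam u hx.1 hv hd hw c4.symm c3.symm c1
    obtain ⟨s, hs, c7, c8⟩ := h.diam u hx.1 ht hw hy c5 c6 c2
    exact ⟨s, clo x hx s hs c7, c7.symm, c8⟩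
  have nb : ∀ x ∈ C, Nb C [x] = Nb D [x] := fun x hx => Set.ext fun y => by
    rw [mem_nb1, mem_nb1]; exact ⟨fun q => ⟨q.1.1, q.2⟩, fun q => ⟨clo x hx y q.1 q.2.2, q.2⟩⟩
  have tt : IsThreeTranspositionSet C := ⟨fun x hx => h.ord x hx.1, fun x hx y hy => by
    obtain ⟨w, hw, c1, c2⟩ := com x hx y hy
    by_cases c : Commute x y
    · exact Or.inl (sq_of_commute (sq x hx.1) (sq y hy.1) c)
    · exact (h.tt u hw.1).2 x (mem_nb1.2 ⟨hx.1, fun q => c (q ▸ c2), c1⟩) y (mem_nb1.2 ⟨hy.1, fun q => c (q ▸ c1.symm), c2⟩)⟩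
  have cC : Clo C := fun x hx y hy => let ⟨w, hw, c1, c2⟩ := com x hx y hy
    clo w hw _ (h.cj x y hy.1) ((c1.mul_right c2).mul_right c1.inv_right)
  let K := Subgroup.closure C
  have mK : ∀ x ∈ C, x ∈ K := fun x hx => Subgroup.subset_closure hx
  have cen : ∀ x ∈ C, ∀ g, Commute x g → g ∈ K := fun x hx g c => let ⟨_, r⟩ := h.res x hx.1
    Subgroup.closure_mono (nb x hx ▸ nb_sub) (r.gen.ge (mem_cent1.2 c))
  have nrm : ∀ g ∈ K, ∀ x ∈ C, g * x * g⁻¹ ∈ C := fun g hg => by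
    induction hg using Subgroup.closure_induction'' with
    | mem y hy => exact cC y hy
    | inv_mem y hy => exact (tt_inv tt hy).symm ▸ cC y hy
    | one => simp
    | mul a b _ _ h1 h2 => exact fun x hx => by simpa [mul_assoc] using h1 _ (h2 x hx)
  have cl1 : ∀ w ∈ C, ∀ a ∈ Nb D [w], ∀ b ∈ Nb D [w], ∃ g ∈ K, g * a * g⁻¹ = b := fun w hw a ha b hb => by
    obtain ⟨π, r⟩ := h.res w hw.1
    obtain ⟨g, e⟩ := u.cls _ (r.fi.mem ha) _ (r.fi.mem hb)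
    obtain ⟨g, c, rfl⟩ := r.sur g
    exact ⟨g, cen w hw g c, r.fi.inj (conj_mem_nb h.cj c.symm ha) hb (by rw [r.cj c (mem_nb1.1 ha).2.2, e])⟩
  have nn : ∀ a ∈ D, ∀ b ∈ Nb D [a], ∃ w ∈ Nb D [a], w ≠ b ∧ Commute w b ∧ ∃ q ∈ D, Commute w q ∧ ¬ Commute b q :=
    fun a ha b hb => by
      obtain ⟨π, r⟩ := h.res a ha
      obtain ⟨q, hq, n⟩ := r.fi.nc u.pg.nc b hb
      obtain ⟨w, hw, c1, c2⟩ := r.fi.cn u.pg.cn b hb q hq n
      exact ⟨w, hw, fun e => n (e ▸ c2), c1, q, hq.1, c2, n⟩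
  have cls : ∀ a ∈ C, ∀ b ∈ C, ∃ g ∈ K, g * a * g⁻¹ = b := fun a ha b hb => by
    by_cases e : b = a
    · exact ⟨1, K.one_mem, by simp [e]⟩
    by_cases c : Commute a b
    · obtain ⟨w, hw, n, c1, -⟩ := nn a ha.1 b (mem_nb1.2 ⟨hb.1, e, c⟩)
      rw [mem_nb1] at hw
      exact cl1 w (clo a ha w hw.1 hw.2.2) a (mem_nb1.2 ⟨ha.1, hw.2.1.symm, hw.2.2.symm⟩) b (mem_nb1.2 ⟨hb.1, n.symm, c1⟩)
    · obtain ⟨w, hw, c1, c2⟩ := com a ha b hb
      exact cl1 w hw a (mem_nb1.2 ⟨ha.1, fun q => c (q ▸ c2), c1⟩) b (mem_nb1.2 ⟨hb.1, fun q => c (q ▸ c1.symm), c2⟩)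
  obtain ⟨π, r⟩ := h.res d hd
  obtain ⟨p, p0, -⟩ := r.fi.surj u.ne.some_mem
  have pC : p ∈ C := clo d dC p p0.1 (mem_nb1.1 p0).2.2
  have zen : ∀ z, (∀ x ∈ C, Commute x z) → z = 1 := fun z hz => by
    refine ((r.ker z (hz d dC)).1 (Subgroup.mem_bot.1 (u.cen ▸ Subgroup.mem_center_iff.2 fun m => ?_))).resolve_right fun e => ?_
    · obtain ⟨m, c, rfl⟩ := r.sur m
      have := commute_closure (fun y hy => (hz y (nb d dC ▸ hy : y ∈ Nb C [d]).1).symm) (r.gen.ge (mem_cent1.2 c))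
      rw [← r.mul _ _ c (hz d dC), ← r.mul _ _ (hz d dC) c, this.eq]
    · obtain ⟨w, hw, -, c1, q, hq, c2, n⟩ := nn p p0.1 d (mem_nb1.2 ⟨hd, (mem_nb1.1 p0).2.1.symm, (mem_nb1.1 p0).2.2.symm⟩)
      exact n (e ▸ hz q (clo w (clo d dC w hw.1 c1.symm) q hq c2)).symm
  have fv : FIso (Subtype.val ⁻¹' C : Set K) C Subtype.val :=
    ⟨fun x hx y hy => cC x hx y hy, ⟨fun _ hx => hx, Subtype.val_injective.injOn, fun x hx => ⟨⟨x, mK x hx⟩, hx, rfl⟩⟩, fun _ _ _ _ => rfl⟩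
  have tg : IsThreeTranspositionGroup (Subtype.val ⁻¹' C : Set K) := ⟨fv.tt tt fun x hx => (Subgroup.orderOf_coe x).symm.trans (tt.1 _ hx),
    fun g x hx => nrm g g.2 x hx, Subgroup.closure_closure_coe_preimage⟩
  have f := key K _ ⟨tg, eq_bot_iff.2 fun z hz => Subtype.ext (zen z fun x hx =>
    congrArg Subtype.val (Subgroup.mem_center_iff.1 hz ⟨x, mK x hx⟩)), fun a ha b hb =>
      let ⟨g, hg, e⟩ := cls a ha b hb; ⟨⟨g, hg⟩, Subtype.ext e⟩, fun x hx => by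
    obtain ⟨ρ, s⟩ := h.res x hx.1
    have f := fv.nb1 hx
    have c : ∀ {y : K}, Commute x y → Commute x.1 y.1 := fun c => congrArg Subtype.val c
    rw [nb _ hx] at f
    refine ⟨fun y => ρ y, fun a b ha hb => s.mul _ _ (c ha) (c hb), fun a ha => (s.ker _ (c ha)).trans (or_congr OneMemClass.coe_eq_one Subtype.val_inj),
      fun m => let ⟨y, a, b⟩ := s.sur m; ⟨⟨y, cen x hx y a⟩, Subtype.ext a, b⟩, f.trans s.fi,
      Subgroup.map_injective (f := K.subtype) Subtype.val_injective ?_⟩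
    rw [MonoidHom.map_closure]
    exact (congrArg _ f.bij.image_eq).trans (s.gen.trans (Subgroup.ext fun y => ⟨fun q =>
      ⟨⟨y, cen x hx y (mem_cent1.1 q)⟩, mem_cent1.2 (Subtype.ext (mem_cent1.1 q)), rfl⟩,
      fun ⟨y, q, e⟩ => e ▸ mem_cent1.2 (c (mem_cent1.1 q))⟩))⟩ ⟨⟨d, mK d dC⟩, dC⟩
  have vp : ∀ l : List K, (l.map Subtype.val).prod = l.prod := fun l => (Subgroup.val_list_prod K l).symm
  have cp : Cp D C K := ⟨h.cj, sq, fun _ hx => hx.1, tt, cen, nrm, cls, clo, fun x hx x2 => by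
    obtain ⟨y, hy, c⟩ := f.fx.comm tg.2.1 ⟨x, hx⟩ (Subtype.ext x2)
    exact ⟨y, hy, congrArg Subtype.val c⟩, fun x hx x2 => by
    obtain ⟨l, a, b, e⟩ := f.iv ⟨x, hx⟩ (Subtype.ext x2)
    exact ⟨_, fv.clq a, by simpa using b, by rw [vp, e]⟩, fun l c a b => by
    obtain ⟨l, c1, rfl⟩ := fv.clq_lift c
    rw [f.nr l c1 (by simpa using a) (Subtype.ext (by rw [← vp, b]; rfl))]; rfl, fun a b c => by
    obtain ⟨l, c', e⟩ := fv.clq_lift c
    obtain ⟨m, m2, rl⟩ := f.rl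
    have l2 : l.length = 2 := by simpa using congrArg List.length e
    obtain ⟨t, a, b, q⟩ := rl.avoid tg.2.1 c' (l2 ▸ f.gt) (l2 ▸ m2)
    exact ⟨_, e ▸ (fv.nb c'.1).clq a, by simpa using b, by rw [vp, q]; rfl⟩, fun l c l3 => by
    obtain ⟨l, c1, rfl⟩ := fv.clq_lift c
    obtain ⟨e, a, b, q⟩ := f.x3 l c1 (by simpa using l3)
    refine ⟨e, a, vp l ▸ congrArg Subtype.val b, fun l' c' l2 k => ?_⟩
    obtain ⟨l', c2, rfl⟩ := fv.clq_lift c'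
    exact q l' c2 (by simpa using l2) (Subtype.ext (by rw [vp, vp] at k; exact k)), p, d, clq_cons'.2
      ⟨(nb d dC).ge p0, by simpa using dC, by simp⟩⟩
  have e : D = C := Set.Subset.antisymm (fun x hx => cp.ofK hx (cp.top ▸ Subgroup.mem_top x)) cp.sub
  exact ⟨⟨e ▸ tt, h.cj, e ▸ cp.top⟩, eq_bot_iff.2 fun z hz => zen z fun x _ => Subgroup.mem_center_iff.1 hz x, h.cls, h.res⟩
end Lw
end H28
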