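import Cfsg.Agent.H28.Mt2
import Cfsg.Agent.H8.Schur2
import Cfsg.Agent.S2091
import Cfsg.Agent.S2053
import Cfsg.Agent.H28.Au1
import Cfsg.Agent.S0815

/-! The perfect double covers of `U₆(2)` and `Fi₂₂` are the centralisers of transpositions. -/
namespace H28
open Cfsg H27
universe u
variable {G : Type u} {M N : Type*} [Group G] [Group M] [Group N]

theorem sur_comm {P X : Type*} [Group P] [Group X] (f : P →* X) (s : Function.Surjective f) (p : commutator X = ⊤) :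
    Function.Surjective (f.comp (commutator P).subtype) := fun x => by
  obtain ⟨y, hy, e⟩ := ((map_commutator_eq P f).trans (by rw [MonoidHom.range_eq_top.2 s, ← commutator_def, p])).ge (Subgroup.mem_top x)
  exact ⟨⟨y, hy⟩, e⟩
theorem stem_lift {H L : Type*} {Q A : Type} [Group H] [Group L] [Group Q] [CommGroup A] [Finite H] [Finite L]
    (hA : HasSchurMultiplier Q A) {π : H →* Q} {ρ : L →* Q} (s1 : Function.Surjective π) (s2 : Function.Surjective ρ)
    (c1 : π.ker ≤ Subgroup.center H) (c2 : ρ.ker ≤ Subgroup.center L) (p1 : commutator H = ⊤) (p2 : commutator L = ⊤)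
    (t1 : ∀ x ∈ π.ker, x * x = 1) (t2 : ∀ x ∈ ρ.ker, x * x = 1) (hn : ∀ k, 2 ^ k ∣ Nat.card A → 2 ^ k ≤ Nat.card ρ.ker) :
    ∃ φ : L →* H, Function.Surjective φ ∧ ∀ x, π (φ x) = ρ x := by
  let P := (π.comp (MonoidHom.fst H L)).eqLocus (ρ.comp (MonoidHom.snd H L))
  let a : P →* H := (MonoidHom.fst H L).comp P.subtype
  let b : P →* L := (MonoidHom.snd H L).comp P.subtype
  have e : ∀ x, π (a x) = ρ (b x) := fun x => x.2
  have sa : Function.Surjective a := fun x => let ⟨y, hy⟩ := s2 (π x); ⟨⟨(x, y), hy.symm⟩, rfl⟩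
  have sb : Function.Surjective b := fun x => let ⟨y, hy⟩ := s1 (ρ x); ⟨⟨(y, x), hy⟩, rfl⟩
  obtain ⟨θ, hθ⟩ := H8.hasSchur_surj_central hA (ξ := ρ.comp b) (s2.comp sb) fun x hx => Subgroup.mem_center_iff.2 fun y =>
    Subtype.ext (Prod.ext (Subgroup.mem_center_iff.1 (c1 ((e x).trans hx)) _) (Subgroup.mem_center_iff.1 (c2 hx) _))
  obtain ⟨k, hk⟩ := IsPGroup.iff_card.1 (show IsPGroup 2 (H8.mult (ρ.comp b)) from fun x => ⟨1, Subtype.ext (Subtype.ext
    (Prod.ext ((pow_two _).trans (t1 _ ((e x).trans x.2.1))) ((pow_two _).trans (t2 _ x.2.1))))⟩)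
  let m : H8.mult (ρ.comp b) →* ρ.ker := (b.comp (Subgroup.subtype _)).codRestrict _ fun x => x.2.1
  have sm : Function.Surjective m := fun z => let ⟨y, hy⟩ := sur_comm b sb p2 z
    ⟨⟨y, show ρ (b y) = 1 from (congrArg ρ hy).trans z.2, y.2⟩, Subtype.ext hy⟩
  have im := (sm.bijective_of_nat_card_le (hk ▸ hn k (hk ▸ Subgroup.card_dvd_of_surjective θ hθ))).1
  let ε := MulEquiv.ofBijective (b.comp (commutator P).subtype) ⟨(injective_iff_map_eq_one _).2 fun x hx => by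
    have := (injective_iff_map_eq_one m).1 im ⟨x, show ρ (b x) = 1 from (congrArg ρ hx).trans ρ.map_one, x.2⟩ (Subtype.ext hx)
    exact Subtype.ext (congrArg (fun y : H8.mult (ρ.comp b) => y.1) this), sur_comm b sb p2⟩
  exact ⟨(a.comp (commutator P).subtype).comp ε.symm.toMonoidHom, (sur_comm a sa p1).comp ε.symm.surjective,
    fun x => (e _).trans (congrArg ρ (ε.apply_symm_apply x))⟩

/-- the centralisers of `c` and `d` are isomorphic -/
structure Tl (c : M) (d : G) (f : M → G) : Prop where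
  mul : ∀ x y, Commute c x → Commute c y → f (x * y) = f x * f y
  inj : ∀ x, Commute c x → f x = 1 → x = 1
  sur : ∀ y, Commute d y → ∃ x, Commute c x ∧ f x = y
  self : f c = d

/-- two surjections with the same kernel -/
theorem tl_of {L : Type*} [Group L] {c : M} {d : G} (α : L →* M) (β : L →* G) (h1 : α.range = Subgroup.centralizer {c})
    (h2 : β.range = Subgroup.centralizer {d}) (k : α.ker = β.ker) {z : L} (e1 : α z = c) (e2 : β z = d) : ∃ f, Tl c d f := by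
  classical
  have k1 : ∀ x y, α x = α y → β x = β y := fun x y e => by
    rw [← mul_inv_eq_one, ← map_inv, ← map_mul, ← MonoidHom.mem_ker] at e ⊢; exact k ▸ e
  have s : ∀ x, Commute c x → ∃ y, α y = x := fun x hx => h1.ge (mem_cent1.2 hx)
  let f : M → G := fun x => if h : ∃ y, α y = x then β h.choose else 1
  have fe : ∀ y, f (α y) = β y := fun y => (dif_pos ⟨y, rfl⟩).trans (k1 _ _ (Exists.choose_spec (⟨y, rfl⟩ : ∃ w, α w = α y)))
  refine ⟨f, fun x y a b => ?_, fun x a b => ?_, fun y a => ?_, e1 ▸ e2 ▸ fe z⟩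
  · obtain ⟨x, rfl⟩ := s x a
    obtain ⟨y, rfl⟩ := s y b
    rw [← map_mul, fe, fe, fe, map_mul]
  · obtain ⟨x, rfl⟩ := s x a
    exact k.ge ((fe x).symm.trans b)
  · obtain ⟨x, rfl⟩ := h2.ge (mem_cent1.2 a)
    exact ⟨α x, mem_cent1.1 (h1.le ⟨x, rfl⟩), fe x⟩

section
variable {d : G} (hd : orderOf d = 2)
include hd
theorem mem_zp2 {x : G} : x ∈ Subgroup.zpowers d ↔ x = 1 ∨ x = d := by
  have d2 : d * d = 1 := by rw [← pow_two, ← hd, pow_orderOf_eq_one]
  rw [← cl_one, mem_cl_cons_sq d2 (mem_cn.2 (by simp))]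
  simp only [cl, List.not_mem_nil, Set.setOf_false, Subgroup.closure_empty, Subgroup.mem_bot]
  rw [mul_eq_one_iff_inv_eq, inv_eq_of_mul_eq_one_right d2, @eq_comm _ d]
theorem quot_hom [((Subgroup.zpowers d).subgroupOf (Subgroup.centralizer {d})).Normal]
    (e : Subgroup.centralizer {d} ⧸ (Subgroup.zpowers d).subgroupOf (Subgroup.centralizer {d}) ≃* N) : ∃ π : Subgroup.centralizer {d} →* N, Function.Surjective π ∧ (∀ x, π x = 1 ↔ x.1 = 1 ∨ x.1 = d) ∧
    π.ker ≤ Subgroup.center _ ∧ ∀ x ∈ π.ker, x * x = 1 := by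
  have k : ∀ x, e.toMonoidHom.comp (QuotientGroup.mk' _) x = 1 ↔ x.1 = 1 ∨ x.1 = d := fun x =>
    e.map_eq_one_iff.trans ((QuotientGroup.eq_one_iff x).trans (mem_zp2 hd))
  refine ⟨_, e.surjective.comp (QuotientGroup.mk'_surjective _), k, fun x hx => Subgroup.mem_center_iff.2 fun y => Subtype.ext ?_,
    fun x hx => Subtype.ext ?_⟩
  · rcases (k x).1 hx with e | e <;> simp [e, (mem_cent1.1 y.2).eq]
  · rcases (k x).1 hx with e | e <;> simp [e, ← pow_two, ← hd]
end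

theorem card_cl_one {d : G} (hd : orderOf d = 2) {K : Subgroup G} (h : d ∈ K) : Nat.card ((cl [d]).subgroupOf K) = 2 := by
  rw [Nat.card_congr (Subgroup.subgroupOfEquivOfLe (cl_le (by simpa using h))).toEquiv, cl_one, Nat.card_zpowers, hd]

theorem tl23 [Finite G] {d : G} (hd : orderOf d = 2) (hq : IsQuasisimple (Subgroup.centralizer {d}))
    [((Subgroup.zpowers d).subgroupOf (Subgroup.centralizer {d})).Normal]
    (e : Subgroup.centralizer {d} ⧸ (Subgroup.zpowers d).subgroupOf (Subgroup.centralizer {d}) ≃* Spor.Fi22) :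
    ∃ c ∈ E23, ∃ f, Tl c d f := by
  obtain ⟨π, s, k, z, t⟩ := quot_hom hd e
  obtain ⟨c, hc⟩ := m23.ne
  obtain ⟨ρ, r⟩ := lv23.rl1 hc
  have := m23.fin
  have q : Clq E23 [c] := ⟨by simpa using hc, by simp⟩
  have kc := r.hom_ker
  have kk : ∀ x : Cn [c], x ∈ r.hom.ker ↔ x.1 = 1 ∨ x.1 = c := fun x => by
    rw [kc, Subgroup.mem_subgroupOf, cl_one, mem_zp2 (m23.tt.1 c hc)]
  have k2 := kc ▸ card_cl_one (m23.tt.1 c hc) (K := Cn [c]) (mem_cn.2 (by simp))
  obtain ⟨φ, s', h⟩ := stem_lift Cfsg.Agent.S2053.result s r.hom_sur z (kc ▸ (r.center fi22_center).ge) hq.1.commutator_eq_top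
    (Subgroup.isPerfect_iff.2 (perfect_cn lv23.tg q (r.gen' (m23.rl7.meet lv23.tg q lv23.gt_one (by simp)))
      (fun m hm => m23.gts m (hm.trans (by simp))) m23.rl7 (by decide) (by simp))).commutator_eq_top t
    (fun x hx => Subtype.ext (by rcases (kk x).1 hx with e | e <;> simp [e, tt_sq m23.tt hc])) fun k hk => by
      rw [k2]
      rw [Nat.card_congr Multiplicative.toAdd, Nat.card_zmod] at hk
      match k, hk with
      | 0, _ | 1, _ => norm_num
      | k + 2, hk => exact absurd ((pow_dvd_pow 2 (by omega : 2 ≤ k + 2)).trans hk) (by norm_num)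
  let c' : Cn [c] := ⟨c, mem_cn.2 (by simp)⟩
  have pc : (φ c').1 = d := by_contra fun n => by
    obtain ⟨x, hx⟩ := s' ⟨d, mem_cent1.2 (Commute.refl d)⟩
    have d1 : d ≠ 1 := H6.ord2_ne_one hd
    rcases (kk x).1 ((h x).symm.trans (hx ▸ (k _).2 (Or.inr rfl))) with e | e
    · exact d1 (by rw [show x = 1 from Subtype.ext e, map_one] at hx; exact (congrArg Subtype.val hx).symm)
    · exact n (congrArg Subtype.val ((congrArg φ (Subtype.ext e : x = c')).symm.trans hx))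
  refine ⟨c, hc, tl_of (Cn [c]).subtype ((Subgroup.subtype _).comp φ) ((Subgroup.range_subtype _).trans (cn_one c))
    (by rw [MonoidHom.range_comp, MonoidHom.range_eq_top.2 s', ← MonoidHom.range_eq_map, Subgroup.range_subtype])
    (Subgroup.ext fun x => ⟨fun a => by rw [show x = 1 from Subtype.ext a]; exact one_mem _, fun a => ?_⟩) (z := c') rfl pc⟩
  refine ((kk x).1 ((h x).symm.trans ((k _).2 (Or.inl a)))).resolve_right fun e => H6.ord2_ne_one hd ?_
  rw [← pc, ← show x = c' from Subtype.ext e]; exact a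

theorem tl22a {D : Set M} (h : M24 D) {a b c : M} (q : Clq D [a, b, c]) (σ : M →* ℤˣ) (hσ : ∀ y ∈ D, σ y = -1) {K : Subgroup M}
    (hK : ∀ x, x ∈ K ↔ σ x = 1 ∧ Commute a x ∧ Commute b x ∧ Commute c x) {d : G} (φ : K →* G)
    (hr : φ.range = Subgroup.centralizer {d}) (hk : ∀ x, φ x = 1 ↔ x.1 = 1 ∨ x.1 = b * c) {z : K} (hz : z.1 = a * b) (e : φ z = d) :
    ∃ c ∈ E22, ∃ f, Tl c d f := by
  obtain ⟨m, q2⟩ := clq_cons'.1 q
  obtain ⟨π, r⟩ := h.lv.rl2 lv23 q2
  have Kn : K ≤ Cn [b, c] := fun x hx => mem_cn.2 (by simpa using ((hK x).1 hx).2.2)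
  have ac : a ∈ Cn [b, c] := mem_cn.2 m.2.2
  have bc : b ∈ Cn [b, c] := q2.cl_le_cn (mem_cl (by simp))
  have pb := (r.ker b bc).2 (mem_cl (by simp))
  refine ⟨π a, r.fi.mem m, tl_of (r.hom.comp (Subgroup.inclusion Kn)) φ (Subgroup.ext fun y => ⟨?_, fun hy => ?_⟩) hr
    (Subgroup.ext fun x => ?_) (z := z) ((congrArg π hz).trans ((r.mul _ ac _ bc).trans (by rw [pb, mul_one]))) e⟩
  · rintro ⟨x, rfl⟩
    exact mem_cent1.2 ((r.comm h.lv.tg.2.1 (Kn x.2) m).2 ((hK x).1 x.2).2.1.symm).symm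
  · obtain ⟨x, xc, rfl⟩ := r.sur y
    have xa := ((r.comm h.lv.tg.2.1 xc m).1 (mem_cent1.1 hy).symm).symm
    rcases Int.units_eq_one_or (σ x) with k | k
    · exact ⟨⟨x, (hK x).2 ⟨k, xa, by simpa using mem_cn.1 xc⟩⟩, rfl⟩
    · exact ⟨⟨b * x, (hK _).2 ⟨by rw [map_mul, k, hσ b (q2.1 b (by simp))]; rfl, (m.2.2 b (by simp)).symm.mul_right xa,
        by simpa using mem_cn.1 (mul_mem bc xc)⟩⟩, (r.mul _ bc _ xc).trans (by rw [pb, one_mul])⟩
  · have o : orderOf (b * c) = 2 := tt_orderOf_two h.tt (q2.1 b (by simp)) (q2.1 c (by simp)) (by simpa using q2.nodup)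
      (q2.comm b (by simp) c (by simp))
    rw [MonoidHom.mem_ker, MonoidHom.mem_ker, hk, ← mem_zp2 o, ← cl_one]
    refine (r.ker x (Kn x.2)).trans ⟨fun k => (even_cl h.tt q2 σ hσ).le ⟨((hK x).1 x.2).1, k⟩, fun k => ((even_cl h.tt q2 σ hσ).ge k).2⟩

theorem tl22b [Finite G] {D : Set M} (h : M24 D) {d : G} (hd : orderOf d = 2) (hq : IsQuasisimple (Subgroup.centralizer {d}))
    [((Subgroup.zpowers d).subgroupOf (Subgroup.centralizer {d})).Normal]
    (e : Subgroup.centralizer {d} ⧸ (Subgroup.zpowers d).subgroupOf (Subgroup.centralizer {d}) ≃* PSU 6 GF4 2) :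
    ∃ c ∈ E22, ∃ f, Tl c d f := by
  obtain ⟨π, s, k, z, t⟩ := quot_hom hd e
  have := h.fin
  obtain ⟨l, q, hl⟩ := h.base
  obtain ⟨a, b, c, q⟩ : ∃ a b c, Clq D [a, b, c] := by
    match l, hl, q with
    | a :: b :: c :: t, _, q => exact ⟨a, b, c, q.sub (by simp)⟩
  obtain ⟨σ, s1, -, -⟩ := h.sgn
  obtain ⟨π', r⟩ := h.lv.rl2 lv23 (q.sub (List.sublist_cons_self _ _))
  have m := (clq_cons'.1 q).1
  obtain ⟨ρ', r'⟩ := lv22.res _ (r.fi.mem m)
  replace r := r.cons h.lv.tg m r'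
  have := psu_simple
  have qK := (r.even h.lv.tg q (r.gen' (h.rl8.meet h.lv.tg q (h.gts 3 (by norm_num)) (by simp)))
    (by rw [psu_card gf4_card]; norm_num) (fun m hm => h.gts m (hm.trans (by simp))) (h.nr.mono (by simp)) (by simp) σ s1
    (Cfsg.Agent.S0815.result 2 1 le_rfl rfl gf4_card 6 (by norm_num) (by norm_num)).le rfl rfl).1
  generalize hK : σ.ker ⊓ Cn [a, b, c] = K at qK
  have Kn : K ≤ Cn [a, b, c] := hK ▸ inf_le_right
  have mK : ∀ x, x ∈ K ↔ σ x = 1 ∧ Commute a x ∧ Commute b x ∧ Commute c x := fun x => by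
    rw [← hK, Subgroup.mem_inf, mem_cn]; simp
  have ha := q.1 a (by simp)
  have hb := q.1 b (by simp)
  have hc := q.1 c (by simp)
  have ab := q.comm a (by simp) b (by simp)
  have ac := q.comm a (by simp) c (by simp)
  have bc := q.comm b (by simp) c (by simp)
  have nd : (a ≠ b ∧ a ≠ c) ∧ b ≠ c := by simpa using q.nodup
  have o1 := tt_orderOf_two h.tt ha hb nd.1.1 ab
  have o2 := tt_orderOf_two h.tt ha hc nd.1.2 ac
  have o3 := tt_orderOf_two h.tt hb hc nd.2 bc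
  have e3 : a * b * (a * c) = b * c := by rw [ab.eq, mul_assoc, tt_mul_mul h.tt ha]
  have aC : a ∈ Cn [a, b, c] := q.cl_le_cn (mem_cl (by simp))
  have pa := (r.ker a aC).2 (mem_cl (by simp))
  let ρ := r.hom.comp (Subgroup.inclusion Kn)
  have ρ1 : Function.Surjective ρ := fun m => by
    obtain ⟨x, b, rfl⟩ := r.sur m
    rcases Int.units_eq_one_or (σ x) with k | k
    · exact ⟨⟨x, hK.le ⟨k, b⟩⟩, rfl⟩
    · exact ⟨⟨a * x, hK.le ⟨show σ _ = 1 by rw [map_mul, k, s1 a ha]; rfl, mul_mem aC b⟩⟩, (r.mul _ aC _ b).trans (by rw [pa, one_mul])⟩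
  have s2 : a * b * (a * b) = 1 := by rw [← pow_two, ← o1, pow_orderOf_eq_one]
  have ρ2 : ∀ x, ρ x = 1 ↔ (x.1 = 1 ∨ x.1 = a * c) ∨ x.1 = a * b ∨ x.1 = b * c := fun x => by
    refine (r.ker x (Kn x.2)).trans (Iff.trans ⟨fun k => (even_cl h.tt q σ s1).le ⟨((mK x).1 x.2).1, k⟩,
      fun k => ((even_cl h.tt q σ s1).ge k).2⟩ ?_)
    rw [List.map_cons, mem_cl_cons_sq s2 (mem_cn.2 (by
      simpa using ((Commute.refl a).mul_right ab).mul_left (ac.symm.mul_right bc.symm))), List.map_singleton, cl_one, mem_zp2 o2,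
      mem_zp2 o2, mul_eq_one_iff_inv_eq, ← eq_inv_mul_iff_mul_eq, inv_eq_of_mul_eq_one_right s2, e3, @eq_comm _ (a * b)]
  have mm : ∀ {x y}, x ∈ [a, b, c] → y ∈ [a, b, c] → x * y ∈ K := fun {x y} hx hy => hK.le ⟨show σ _ = 1 by
    rw [map_mul, s1 x (q.1 x hx), s1 y (q.1 y hy)]; rfl, q.cl_le_cn (mul_mem (mem_cl hx) (mem_cl hy))⟩
  let u : K := ⟨a * b, mm (by simp) (by simp)⟩
  let v : K := ⟨a * c, mm (by simp) (by simp)⟩
  let w : K := ⟨b * c, mm (by simp) (by simp)⟩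
  have uv : u * v = w := Subtype.ext e3
  have ρ3 : ∀ x, ρ x = 1 ↔ (x = 1 ∨ x = v) ∨ x = u ∨ x = w := fun x => (ρ2 x).trans (or_congr (or_congr
    OneMemClass.coe_eq_one (Subtype.val_inj (b := v))) (or_congr (Subtype.val_inj (b := u)) (Subtype.val_inj (b := w))))
  have n1 : u ≠ 1 := fun e => H6.ord2_ne_one o1 (congrArg Subtype.val e)
  have n2 : v ≠ 1 := fun e => H6.ord2_ne_one o2 (congrArg Subtype.val e)
  have n3 : w ≠ 1 := fun e => H6.ord2_ne_one o3 (congrArg Subtype.val e)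
  have n4 : v ≠ u := fun e => nd.2 (mul_left_cancel (congrArg Subtype.val e)).symm
  have n5 : v ≠ w := fun e => nd.1.1 (mul_right_cancel (congrArg Subtype.val e))
  have n6 : u ≠ w := fun e => n2 (by rwa [← uv, left_eq_mul] at e)
  obtain ⟨φ, s', k'⟩ := stem_lift (Cfsg.Agent.S2091.result gf4_card) s ρ1 z (fun x hx => Subgroup.mem_center_iff.2 fun y =>
    Subtype.ext (commute_cl (fun p hp => (mem_cn.1 (Kn y.2) p hp).symm) ((r.ker x (Kn x.2)).1 hx))) hq.1.commutator_eq_top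
    qK.1.commutator_eq_top t (fun x hx => Subtype.ext ((closure_commuting (fun y hy => tt_sq h.tt (q.1 y hy)) q.comm).2 _
      ((r.ker x (Kn x.2)).1 hx))) fun k hk => by
      classical
      have : Nat.card ρ.ker = 4 := by
        rw [← show ({1, v, u, w} : Finset K).card = 4 by simp [n4, n5, n6, n1.symm, n2.symm, n3.symm], ← Nat.card_eq_finsetCard]
        exact Nat.card_congr (Equiv.subtypeEquivRight fun x => (ρ3 x).trans (by simp [or_assoc]))
      rw [this]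
      rw [Nat.card_congr Multiplicative.toAdd, Nat.card_prod, Nat.card_prod, Nat.card_zmod, Nat.card_zmod] at hk
      match k, hk with
      | 0, _ | 1, _ | 2, _ => norm_num
      | k + 3, hk => exact absurd ((pow_dvd_pow 2 (by omega : 3 ≤ k + 3)).trans hk) (by norm_num)
  let ψ := (Subgroup.subtype _).comp φ
  have hr : ψ.range = Subgroup.centralizer {d} := by
    rw [MonoidHom.range_comp, MonoidHom.range_eq_top.2 s', ← MonoidHom.range_eq_map, Subgroup.range_subtype]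
  have k1 : ∀ x, ψ x = 1 ∨ ψ x = d ↔ (x = 1 ∨ x = v) ∨ x = u ∨ x = w := fun x => (k _).symm.trans (k' x ▸ ρ3 x)
  have d1 : d ≠ 1 := H6.ord2_ne_one hd
  have d2 : d * d = 1 := by rw [← pow_two, ← hd, pow_orderOf_eq_one]
  have e4 : ψ w = ψ u * ψ v := by rw [← uv, map_mul]
  have k2 : ∀ y : K, ψ y = 1 → (v = y ∨ ψ v = d) → (u = y ∨ ψ u = d) → (w = y ∨ ψ w = d) → ∀ x, ψ x = 1 ↔ x.1 = 1 ∨ x.1 = y.1 :=
    fun y p1 p2 p3 p4 x => ⟨fun a => by
      have k : ∀ z, z = y ∨ ψ z = d → x = z → x.1 = 1 ∨ x.1 = y.1 := fun z p e =>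
        Or.inr (congrArg Subtype.val (e.trans (p.resolve_right fun b => d1 (b.symm.trans (e ▸ a)))))
      rcases (k1 x).1 (Or.inl a) with (b | b) | b | b
      exacts [Or.inl (congrArg Subtype.val b), k v p2 b, k u p3 b, k w p4 b], fun a => a.elim
        (fun a => by rw [show x = 1 from Subtype.ext a, map_one]) fun a => by rw [show x = y from Subtype.ext a, p1]⟩
  rcases (k1 u).2 (.inr (.inl rfl)) with a1 | a1 <;> rcases (k1 v).2 (.inl (.inr rfl)) with a2 | a2 <;> rw [a1, a2] at e4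
  · obtain ⟨x, hx⟩ := hr.ge (mem_cent1.2 (Commute.refl d))
    refine absurd (hx.symm.trans ?_) d1
    rcases (k1 x).1 (Or.inr hx) with (rfl | rfl) | rfl | rfl
    exacts [map_one ψ, a2, a1, e4.trans (one_mul _)]
  · exact tl22a h (q.perm (l' := [c, a, b]) (List.perm_append_comm (l₁ := [a, b]) (l₂ := [c]))).1 σ s1
      (fun x => (mK x).trans (by tauto)) ψ hr (k2 u a1 (.inr a2) (.inl rfl) (.inr (e4.trans (one_mul d)))) (z := v) ac.eq a2
  · exact tl22a h (q.perm (l' := [b, a, c]) (List.Perm.swap _ _ _)).1 σ s1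
      (fun x => (mK x).trans (by tauto)) ψ hr (k2 v a2 (.inl rfl) (.inr a1) (.inr (e4.trans (mul_one d)))) (z := u) ab.eq a1
  · exact tl22a h q σ s1 mK ψ hr (k2 w (e4.trans d2) (.inr a2) (.inr a1) (.inl rfl)) (z := u) rfl a1

theorem tl22 [Finite G] {d : G} (hd : orderOf d = 2) (hq : IsQuasisimple (Subgroup.centralizer {d}))
    [((Subgroup.zpowers d).subgroupOf (Subgroup.centralizer {d})).Normal] {F : Type} [Field F] [Fintype F] (hF : Fintype.card F = 4)
    (e : Subgroup.centralizer {d} ⧸ (Subgroup.zpowers d).subgroupOf (Subgroup.centralizer {d}) ≃* PSU 6 F 2) :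
    ∃ c ∈ E22, ∃ f, Tl c d f :=
  let ⟨a⟩ := (fi22_cover hF).2.1; let ⟨b⟩ := (fi22_cover gf4_card).2.1; tl22b m24 hd hq (e.trans (a.symm.trans b))
end H28
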