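import Cfsg.Agent.H28.Mt3

/-! Fusion of involutions in the centraliser of a transposition-like involution. -/
set_option maxRecDepth 100000
namespace H28
open Cfsg H27
universe u
variable {G : Type u} {M N : Type*} [Group G] [Group M] [Group N]

def Sq (c x : M) : Prop := ∃ y, Commute c y ∧ y * y = x
theorem Sq.conj {c x : M} (h : Sq c x) (g : M) : Sq (g * c * g⁻¹) (g * x * g⁻¹) :=
  let ⟨y, a, b⟩ := h; ⟨g * y * g⁻¹, (commute_conj_iff _ _ _).2 a, by rw [conj_mul, b]⟩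
/-- the products of cliques in the residue are squares -/
def SqC (E : Set M) (k : Nat) (b : Bool) : Prop := ∀ c l, Clq E (c :: l) → l.length = k → Sq c (cond b (c :: l) l).prod
noncomputable def TD.sqChk (T : TD) (c : Pt) (l : List Pt) (b : Bool) (Y : List Pt) : Bool :=
  and' (and' (T.ok (c :: l)) (T.clqChk (ones T.n) (c :: l))) (and' (and' (T.ok Y) (allL Y fun p => tb (T.pn c) (T.pi p)))
    (T.oneChk (prW (Y ++ Y ++ cond b (c :: l) l))))
theorem FM.sqc {T : TD} {ε : Nat → M} {xs : List M} {E : Set M} (f : FM T ε xs E) (c : Pt) (l : List Pt) (b : Bool) (Y : List Pt)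
    (t : GT E (l.length + 1)) (h : T.sqChk c l b Y = true) : SqC E l.length b := fun c' l' q e => by
  rw [TD.sqChk, and'_eq, Bool.and_eq_true] at h
  have q0 := f.clq' h.1
  simp only [and'_eq, Bool.and_eq_true, TD.ok_iff, allL_iff] at h
  obtain ⟨⟨h1, -⟩, ⟨h2, h3⟩, h4⟩ := h
  obtain ⟨g, hg⟩ := t _ _ q0 q (by simp) (by simp [e])
  have := f.one _ h4
  rw [ev_prW, List.map_append, List.map_append, List.prod_append, List.prod_append] at this
  have s : Sq (pv xs c) ((cond b (c :: l) l).map (pv xs)).prod := ⟨_, Commute.list_prod_right _ _ (List.forall_mem_map.2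
    fun p hp => (f.comm_iff (h1 c List.mem_cons_self) (h2 p hp)).1 (h3 p hp)), (eq_inv_of_mul_eq_one_left this).trans
      (inv_eq_of_mul_eq_one_right (Clq.sq f.tt (by cases b; exacts [(clq_cons'.1 q0).2, q0])))⟩
  have s' := s.conj g
  rw [← map_conj_prod] at s'
  obtain ⟨rfl, rfl⟩ := List.cons.inj hg
  cases b <;> exact s'

theorem Res.cases {E : Set M} {U : Set N} {c : M} {π : M → N} (r : Res E c U π) (iv : IV U 3) {x : M} (hx : Commute c x)
    (h : π x * π x = 1) : ∃ l, Clq (Nb E [c]) l ∧ l.length ≤ 3 ∧ (x = l.prod ∨ x = c * l.prod) := by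
  obtain ⟨l, a, b, e⟩ := iv _ h
  obtain ⟨l, a', rfl⟩ := r.fi.clq_lift a
  have k := fun y hy => (mem_nb1.1 (a'.1 y hy)).2.2
  rw [← r.prod k] at e
  exact ⟨l, a', by simpa using b, r.eq (Commute.list_prod_right _ _ k) hx e⟩
theorem Res.sq {E : Set M} {U : Set N} {c : M} {π : M → N} (r : Res E c U π) (tt : IsThreeTranspositionSet E) (hc : c ∈ E)
    (iv : IV U 3) {x : M} (hx : Commute c x) (h : x * x = 1 ∨ x * x = c) : x * x = 1 := by
  obtain ⟨l, a, -, e⟩ := r.cases iv hx (by rw [← r.mul _ _ hx hx]; exact (r.ker _ (hx.mul_right hx)).2 h)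
  rcases e with rfl | rfl
  exacts [(a.mono nb_sub).sq tt, (clq_cons.2 ⟨hc, a⟩).sq tt]

namespace Tl
variable {c : M} {d : G} {f : M → G} (t : Tl c d f)
include t
theorem one : f 1 = 1 := by simpa using t.mul 1 1 (Commute.one_right c) (Commute.one_right c)
theorem inv {x : M} (hx : Commute c x) : f x⁻¹ = (f x)⁻¹ :=
  eq_inv_of_mul_eq_one_left (by rw [← t.mul _ _ hx.inv_right hx, inv_mul_cancel, t.one])
theorem cj {x y : M} (hx : Commute c x) (hy : Commute c y) : f (x * y * x⁻¹) = f x * f y * (f x)⁻¹ := by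
  rw [t.mul _ _ (hx.mul_right hy) hx.inv_right, t.mul _ _ hx hy, t.inv hx]
theorem eq {x y : M} (hx : Commute c x) (hy : Commute c y) (e : f x = f y) : x = y :=
  mul_inv_eq_one.1 (t.inj _ (hx.mul_right hy.inv_right) (by rw [t.mul _ _ hx hy.inv_right, t.inv hy, e, mul_inv_cancel]))
theorem comm {x y : M} (hx : Commute c x) (hy : Commute c y) : Commute (f x) (f y) ↔ Commute x y :=
  ⟨fun h => t.eq (hx.mul_right hy) (hy.mul_right hx) (by rw [t.mul _ _ hx hy, t.mul _ _ hy hx, h.eq]),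
    fun h => by rw [Commute, SemiconjBy, ← t.mul _ _ hx hy, ← t.mul _ _ hy hx, h.eq]⟩
theorem mem {x : M} (hx : Commute c x) : Commute d (f x) := t.self ▸ (t.comm (Commute.refl c) hx).2 hx
theorem nsq (h : ∀ x, Commute c x → x * x ≠ c) (g : G) : g * g ∉ conjugatesOf d := fun m => by
  obtain ⟨k, e⟩ := isConj_iff.1 (IsConj.symm m)
  rw [← conj_mul] at e
  obtain ⟨x, a, b⟩ := t.sur (k * g * k⁻¹) (e ▸ (Commute.refl _).mul_left (Commute.refl _))
  exact h x a (t.eq (a.mul_right a) (Commute.refl c) (by rw [t.mul _ _ a a, b, e, t.self]))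
theorem sqn (h : ∀ x, Commute c x → x * x ≠ c) {x : M} (s : Sq c x) : f x ∉ conjugatesOf d := by
  obtain ⟨y, a, rfl⟩ := s; rw [t.mul _ _ a a]; exact t.nsq h _
/-- transport of a commuting pair of conjugates of `d` -/
theorem pair {X Y : G} (hX : X ∈ conjugatesOf d) (h : Commute X Y) : ∃ g : G, g * X * g⁻¹ = d ∧ ∃ y, Commute c y ∧ f y = g * Y * g⁻¹ :=
  let ⟨g, e⟩ := isConj_iff.1 (IsConj.symm hX); ⟨g, e, t.sur _ (e ▸ (commute_conj_iff _ _ _).2 h)⟩

theorem res {E : Set M} {U : Set N} {π : M → N} (r : Res E c U π) {z : M} (hz : z = 1 ∨ z = c) (c2 : c * c = 1)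
    (h : ∀ x, Commute c x → (f x ∈ conjugatesOf d ∧ x ≠ c ↔ z * x ∈ Nb E [c]))
    (g : z ∈ Subgroup.closure {x | z * x ∈ Nb E [c]}) : ∃ ρ, Res (conjugatesOf d) d U ρ := by
  choose! s s1 s2 using t.sur
  have sf : ∀ x, Commute c x → s (f x) = x := fun x hx => t.eq (s1 _ (t.mem hx)) hx (s2 _ (t.mem hx))
  have zc : Commute c z := by rcases hz with rfl | rfl; exacts [Commute.one_right c, Commute.refl _]
  have z2 : z * z = 1 := by rcases hz with rfl | rfl; exacts [one_mul _, c2]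
  have pz : ∀ x, Commute c x → π (z * x) = π x := fun x hx => by rw [r.mul _ _ zc hx, (r.ker z zc).2 hz, one_mul]
  have zz : ∀ x, z * (z * x) = x := fun x => by rw [← mul_assoc, z2, one_mul]
  have nb : ∀ x, Commute c x → (f x ∈ Nb (conjugatesOf d) [d] ↔ z * x ∈ Nb E [c]) := fun x hx => by
    rw [mem_nb1, ← h x hx, and_iff_left (t.mem hx)]
    exact and_congr_right fun _ => not_congr ⟨fun e => t.eq hx (Commute.refl c) (e.trans t.self.symm), fun e => e ▸ t.self⟩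
  have cz : ∀ x, z * x ∈ Nb E [c] → Commute c x := fun x hx => zz x ▸ zc.mul_right (mem_nb1.1 hx).2.2
  have mul : ∀ x y, Commute d x → Commute d y → π (s (x * y)) = π (s x) * π (s y) := fun x y a b => by
    rw [← r.mul _ _ (s1 x a) (s1 y b), ← sf _ ((s1 x a).mul_right (s1 y b)), t.mul _ _ (s1 x a) (s1 y b), s2 x a, s2 y b]
  refine ⟨fun y => π (s y), mul, fun x a => (r.ker _ (s1 x a)).trans (or_congr ⟨fun e => by rw [← s2 x a, e, t.one],
    fun e => by rw [e, ← t.one, sf _ (Commute.one_right c)]⟩ ⟨fun e => by rw [← s2 x a, e, t.self],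
    fun e => by rw [e, ← t.self, sf _ (Commute.refl c)]⟩), fun m => let ⟨x, a, b⟩ := r.sur m; ⟨f x, t.mem a, by rw [sf x a, b]⟩,
    ⟨Clo.nb (fun x _ y hy => conj_mem_conjugatesOf x y hy) _, ⟨fun y hy => ?_, fun x hx y hy e => ?_, fun m hm => ?_⟩,
      fun x hx y hy => ?_⟩, le_antisymm ((Subgroup.closure_le _).2 fun _ hy => mem_cent1.2 (mem_nb1.1 hy).2.2) fun y hy => ?_⟩
  · have a := (mem_nb1.1 hy).2.2
    exact (pz _ (s1 y a) ▸ r.fi.mem ((nb _ (s1 y a)).1 ((s2 y a).symm ▸ hy)) : π (s y) ∈ U)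
  · have a := (mem_nb1.1 hx).2.2
    have b := (mem_nb1.1 hy).2.2
    rw [← s2 x a, ← s2 y b, mul_left_cancel (r.fi.inj ((nb _ (s1 x a)).1 ((s2 x a).symm ▸ hx)) ((nb _ (s1 y b)).1
      ((s2 y b).symm ▸ hy)) (by rw [pz _ (s1 x a), pz _ (s1 y b)]; exact e))]
  · obtain ⟨x, hx, rfl⟩ := r.fi.surj hm
    have a := zc.mul_right (mem_nb1.1 hx).2.2
    exact ⟨f (z * x), (nb _ a).2 ((zz x).symm ▸ hx), by beta_reduce; rw [sf _ a, pz _ (mem_nb1.1 hx).2.2]⟩
  · have a := (mem_nb1.1 hx).2.2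
    have b := (mem_nb1.1 hy).2.2
    have i := mul x⁻¹ x a.inv_right a
    rw [inv_mul_cancel, ← t.one, sf _ (Commute.one_right c), r.one] at i
    rw [mul _ _ (a.mul_right b) a.inv_right, mul _ _ a b, eq_inv_of_mul_eq_one_left i.symm]
  · obtain ⟨x, a, rfl⟩ : ∃ x, Commute c x ∧ f x = y := ⟨_, s1 y (mem_cent1.1 hy), s2 y (mem_cent1.1 hy)⟩
    have k : x ∈ Subgroup.closure {x | z * x ∈ Nb E [c]} := (Subgroup.closure_le _).2
      (fun y hy => zz y ▸ mul_mem g (Subgroup.subset_closure (show z * (z * y) ∈ _ from (zz y).symm ▸ hy))) (r.gen.ge (mem_cent1.2 a))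
    suffices Commute c x ∧ f x ∈ Subgroup.closure (Nb (conjugatesOf d) [d]) from this.2
    clear a hy
    induction k using Subgroup.closure_induction with
    | mem y hy => exact ⟨cz y hy, Subgroup.subset_closure ((nb y (cz y hy)).2 hy)⟩
    | one => exact ⟨Commute.one_right c, t.one ▸ one_mem _⟩
    | mul a b _ _ p q => exact ⟨p.1.mul_right q.1, t.mul _ _ p.1 q.1 ▸ mul_mem p.2 q.2⟩
    | inv a _ p => exact ⟨p.1.inv_right, t.inv p.1 ▸ inv_mem p.2⟩
end Tl

theorem lw_of_res {d : G} (hd : orderOf d = 2) {U : Set N} {ρ : G → N} (r : Res (conjugatesOf d) d U ρ) :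
    Lw (conjugatesOf d) U := ⟨conj_mem_conjugatesOf, fun x hx => by
      obtain ⟨g, rfl⟩ := isConj_iff.1 hx; exact H6.ord2_conj hd g,
  fun a ha b hb => isConj_iff.1 ((IsConj.symm ha).trans hb), fun y hy => by
    obtain ⟨g, rfl⟩ := isConj_iff.1 (IsConj.symm hy)
    exact ⟨_, Res.equiv (fun x _ => conj_mem_conjugatesOf x) (MulAut.conj g) (image_conj conj_mem_conjugatesOf g) hy r⟩⟩

theorem Rl.hept {E : Set M} (hc : ∀ g : M, ∀ d ∈ E, g * d * g⁻¹ ∈ E) {k m : Nat} (r : Rl E k m) {l : List M} (c : Clq E l)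
    (t : GT E l.length) (hk : l.length ≤ k) : ∃ s, Clq E (l ++ s) ∧ l.length + s.length = k ∧ (l ++ s).prod = 1 := by
  obtain ⟨h, s, a, b, -, e⟩ := r
  have a' := a.sub (List.sublist_append_left h s)
  obtain ⟨g, hg⟩ := t _ l (a'.sub (List.take_sublist l.length h)) c (by simp; omega) rfl
  have : h.map (fun x => g * x * g⁻¹) = l ++ (h.drop l.length).map fun x => g * x * g⁻¹ := by
    rw [← hg, ← List.map_append, List.length_map, List.length_take, min_eq_left (by omega), List.take_append_drop]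
  exact ⟨_, this ▸ (fiso_conj hc g).clq a', by simp; omega, by rw [← this, map_conj_prod, e]; simp⟩
theorem x3_of {E : Set M} (tg : IsThreeTranspositionGroup E) (t : GT E 3) {m : Nat} (r : Rl E 7 m) (nr : NR E 5) (l : List M)
    (c : Clq E l) (e : l.length = 3) : ∃ e ∈ E, Commute e l.prod ∧ ∀ l', Clq E l' → l'.length = 2 → e * l.prod ≠ l'.prod := by
  obtain ⟨s, a, b, p⟩ := r.hept tg.2.1 c (e ▸ t) (by omega)
  obtain ⟨x, s, rfl⟩ := List.exists_cons_of_length_eq_add_one (show s.length = 3 + 1 by omega)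
  obtain ⟨a1, a2⟩ := Clq.prod_eq' tg.1 a p (l := x :: l) (l' := s) List.perm_middle
  refine ⟨x, a.1 x (by simp), Commute.list_prod_right _ _ fun y hy => a.comm x (by simp) y (by simp [hy]), fun l' c' e' q => ?_⟩
  have := (nr.perm3 tg.1 c' a1 (by omega) (by simp at b; omega) (q.symm.trans a2)).length_eq
  simp at b; omega
theorem M22.fn {D : Set G} (h : M22 D) : Fn D :=
  ⟨h.fx, h.iv, h.nr, h.gts 2 (by norm_num), ⟨_, by norm_num, h.rl7⟩, x3_of h.lv.tg (h.gts 3 le_rfl) h.rl7 h.nr⟩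
theorem M23.fn {D : Set G} (h : M23 D) : Fn D :=
  ⟨h.fx, h.iv, h.nr.mono (by norm_num), h.gts 2 (by norm_num), ⟨_, by norm_num, h.rl7⟩,
    x3_of h.lv.tg (h.gts 3 (by norm_num)) h.rl7 (h.nr.mono (by norm_num))⟩

theorem sq22 : SqC E22 1 true ∧ SqC E22 2 false ∧ SqC E22 2 true :=
  ⟨fm22.sqc (0, []) [(5, [])] true [(2, []), (4, [6, 5]), (2, [3, 7, 8, 4, 3, 7, 5, 4, 3]), (0, [3, 7, 8, 1, 2, 3, 7, 6, 5, 4, 3, 2, 1])]
    (m22.gts 2 (by norm_num)) (by decide +kernel),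
  fm22.sqc (0, []) [(3, []), (2, [7, 3])] false [(3, []), (2, []), (7, [])] (m22.gts 3 le_rfl) (by decide +kernel),
  fm22.sqc (0, []) [(0, [1, 2, 3, 7, 5, 4, 3, 2, 1]), (0, [4, 3, 7, 2, 3, 4, 1, 2, 3, 7, 5, 4, 3, 2, 1])] true
    [(3, []), (2, [7, 3]), (4, [5]), (7, [])] (m22.gts 3 le_rfl) (by decide +kernel)⟩
theorem sq23 : (SqC E23 2 false ∧ SqC E23 2 true) ∧ SqC E23 3 false ∧ SqC E23 3 true :=
  ⟨⟨fm23.sqc (0, []) [(2, []), (1, [3, 2])] false [(1, []), (3, []), (2, []), (7, [])] (m23.gts 3 (by norm_num)) (by decide +kernel),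
  fm23.sqc (0, []) [(1, [9, 10, 5, 4, 9, 3, 4, 5, 2, 3, 4, 9, 10, 4, 9, 6, 3, 4, 5, 2, 3, 4, 9, 7, 6, 5, 4, 3, 2]),
    (1, [9, 10, 5, 4, 9, 3, 4, 5, 2, 3, 4, 9, 10, 4, 5, 6, 3, 4, 5, 2, 3, 4, 9, 7, 6, 5, 4, 3, 2])] true
    [(6, []), (7, []), (1, []), (4, [6, 5]), (3, [4]), (2, [])] (m23.gts 3 (by norm_num)) (by decide +kernel)⟩,
  fm23.sqc (0, []) [(1, [2]), (1, [3, 4, 9, 5, 4, 3, 2]), (1, [6, 5, 4, 9, 3, 4, 5, 2, 3, 4, 9, 6, 5, 4, 3, 2])] false
    [(4, []), (2, [3]), (4, [9]), (5, [])] (m23.gts 4 le_rfl) (by decide +kernel),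
  fm23.sqc (0, []) [(0, [8, 7, 6, 5, 4, 9, 2, 3, 4, 5, 6, 7, 8]), (2, [6, 5, 4, 9, 7, 6, 5, 4, 3]), (7, [])] true
    [(4, []), (2, [3]), (4, [9]), (5, [])] (m23.gts 4 le_rfl) (by decide +kernel)⟩

theorem fus23 {E : Set M} {U : Set N} (h : Lv E U) (iv : IV U 3) (gt : GTs E 2) {m : Nat} (rl : Rl E 7 m)
    (sq : (SqC E 2 false ∧ SqC E 2 true) ∧ SqC E 3 false ∧ SqC E 3 true) {c : M} (hc : c ∈ E) {d : G} {f : M → G} (t : Tl c d f)
    (w : ∃ g : G, g * d * g⁻¹ ∈ Subgroup.centralizer {d} ∧ g * d * g⁻¹ ≠ d) : ∃ ρ, Res (conjugatesOf d) d U ρ := by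
  obtain ⟨π, r⟩ := h.res c hc
  have tt := h.tg.1
  have c2 := tt_sq tt hc
  have ns : ∀ x, Commute c x → x * x ≠ c := fun x hx e => tt_ne_one tt hc (e.symm.trans (r.sq tt hc iv hx (.inr e)))
  have cc : ∀ x, Commute c x → f x ∈ conjugatesOf d → x = c ∨ x ∈ Nb E [c] ∨ c * x ∈ Nb E [c] := fun x hx m => by
    obtain ⟨g, e⟩ := isConj_iff.1 m
    have x2 : x * x = 1 := t.inj _ (hx.mul_right hx) (by
      rw [t.mul _ _ hx hx, ← e, conj_mul, ← t.self, ← t.mul _ _ (Commute.refl c) (Commute.refl c), c2, t.one]; simp)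
    obtain ⟨l, a, b, e⟩ := r.cases iv hx (by rw [← r.mul _ _ hx hx, x2, r.one])
    have q := clq_cons.2 ⟨hc, a⟩
    match l, a, b, e, q with
    | [], _, _, .inl e, _ => exact absurd m (t.sqn ns ⟨1, Commute.one_right c, by simp [e]⟩)
    | [], _, _, .inr e, _ => exact .inl (by simpa using e)
    | [y], a, _, .inl e, _ => exact .inr (.inl (by simpa [e] using a.1 y (by simp)))
    | [y], a, _, .inr e, _ => exact .inr (.inr (by simpa [e, tt_mul_mul tt hc] using a.1 y (by simp)))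
    | [_, _], _, _, .inl e, q => exact absurd m (t.sqn ns (e ▸ sq.1.1 _ _ q rfl))
    | [_, _], _, _, .inr e, q => exact absurd m (t.sqn ns (e ▸ sq.1.2 _ _ q rfl))
    | [_, _, _], _, _, .inl e, q => exact absurd m (t.sqn ns (e ▸ sq.2.1 _ _ q rfl))
    | [_, _, _], _, _, .inr e, q => exact absurd m (t.sqn ns (e ▸ sq.2.2 _ _ q rfl))
  have q1 : Clq E [c] := ⟨by simpa using hc, by simp⟩
  have al : ∀ z, Commute c z → (∀ g, Commute c g → Commute g z) → ∀ x y, z * x ∈ Nb E [c] → z * y ∈ Nb E [c] → Commute c x →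
      f x ∈ conjugatesOf d → f y ∈ conjugatesOf d := fun z _ hz x y a b k m => by
    obtain ⟨g, hg, e⟩ := GT.nb (gt 2 le_rfl) q1 a b
    have cg : Commute c g := mem_cn.1 hg c (by simp)
    rw [← mul_assoc, (hz g cg).eq, mul_assoc z, mul_assoc z, mul_right_inj] at e
    rw [← e, t.cj cg k]; exact conj_mem_conjugatesOf _ _ m
  have a1 := al 1 (Commute.one_right c) fun g _ => Commute.one_right g
  have a2 := al c (Commute.refl c) fun g hg => hg.symm
  simp only [one_mul] at a1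
  obtain ⟨s, cs, ls, ps⟩ := rl.hept h.tg.2.1 q1 (gt 1 (by norm_num)) (by simp)
  have cs' : Clq (Nb E [c]) s := (clq_cons.1 cs).2
  have nb : ∀ x ∈ Nb E [c], Commute c x := fun x hx => (mem_nb1.1 hx).2.2
  have nn : ∀ x ∈ Nb E [c], c * x ∉ Nb E [c] := fun x hx m => by
    have := r.fi.inj m hx (by rw [r.mul _ _ (Commute.refl c) (nb x hx), r.self, one_mul])
    exact tt_ne_one tt hc (mul_eq_right.1 this)
  have ex : ∀ x y, x ∈ Nb E [c] → c * y ∈ Nb E [c] → Commute c y → f x ∈ conjugatesOf d → f y ∉ conjugatesOf d :=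
    fun x y hx hy cy m1 m2 => by
      match s, ls, cs' with
      | u :: v :: _, _, cs' =>
        have hu := cs'.1 u (by simp)
        have hv := cs'.1 v (by simp)
        have uv := cs'.comm u (by simp) v (by simp)
        have q : Clq (Nb E [c]) [u, v] := cs'.sub (by simp)
        obtain ⟨g, e, z, cz, e'⟩ := t.pair (a1 x u hx hu (nb x hx) m1) ((t.comm (nb u hu) (nb v hv)).2 uv)
        have n : f (c * z) ∉ conjugatesOf d := fun k => t.sqn ns (sq.1.1 _ _ (clq_cons.2 ⟨hc, q⟩) rfl) (by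
          rw [t.mul _ _ (Commute.refl c) cz, t.self, e', ← e, conj_mul, e] at k
          simpa [t.mul _ _ (nb u hu) (nb v hv), mul_assoc] using conj_mem_conjugatesOf g⁻¹ _ k)
        rcases cc z cz (e' ▸ conj_mem_conjugatesOf _ _ (a1 x v hx hv (nb x hx) m1)) with k | k | k
        · rw [k, t.self, ← e] at e'
          exact (by simpa using q.nodup : u ≠ v) (t.eq (nb u hu) (nb v hv) (conj_inj e'))
        · exact n (a2 y _ hy ((tt_mul_mul tt hc z).symm ▸ k) cy m2)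
        · exact n (a1 x _ hx k (nb x hx) m1)
  obtain ⟨g, w1, w2⟩ := w
  obtain ⟨x, cx, e⟩ := t.sur _ (mem_cent1.1 w1)
  have m : f x ∈ conjugatesOf d := e ▸ isConj_iff.2 ⟨g, rfl⟩
  rcases cc x cx m with k | k | k
  · exact absurd (by rw [← e, k, t.self]) w2
  · refine t.res r (.inl rfl) c2 (fun y cy => ?_) (one_mem _)
    rw [one_mul]
    exact ⟨fun ⟨a, b⟩ => ((cc y cy a).resolve_left b).resolve_right fun k' => ex x y k k' cy m a,
      fun a => ⟨a1 x y k a cx m, (mem_nb1.1 a).2.1⟩⟩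
  · refine t.res r (.inr rfl) c2 (fun y cy => ⟨fun ⟨a, b⟩ => ((cc y cy a).resolve_left b).resolve_left fun k' => ex y x k' k cx a m,
      fun a => ⟨a2 x y k a cx m, fun e => tt_ne_one tt a.1 (by rw [e, c2])⟩⟩) ?_
    have k : ∀ l : List M, (∀ y ∈ l, Commute c y) → (l.map (c * ·)).prod = c ^ l.length * l.prod := fun l hl => by
      induction l with
      | nil => simp
      | cons y l ih =>
        rw [List.forall_mem_cons] at hl
        rw [List.map_cons, List.prod_cons, ih hl.2, List.length_cons, List.prod_cons, pow_succ', mul_assoc, mul_assoc,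
          ← mul_assoc y, ← (hl.1.pow_left _).eq, mul_assoc]
    have := k s fun y hy => nb y (cs'.1 y hy)
    rw [show s.length = 2 * 3 by simp at ls; omega, pow_mul, pow_two, c2, one_pow, one_mul,
      ← tt_eq_of_mul_eq_one tt hc (show c * s.prod = 1 from ps)] at this
    have k2 : (s.map (c * ·)).prod ∈ Subgroup.closure {x | c * x ∈ Nb E [c]} := list_prod_mem (List.forall_mem_map.2 fun y hy =>
      Subgroup.subset_closure (show c * (c * y) ∈ _ from (tt_mul_mul tt hc y).symm ▸ cs'.1 y hy))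
    rwa [this] at k2

/-- the cliques of size four which are not contained in a hexad -/
def NH (E : Set M) (c : M) (l : List M) : Prop :=
  Clq E (c :: l) ∧ l.length = 3 ∧ ∀ l', Clq E l' → l'.length = 2 → (c :: l).prod ≠ l'.prod
theorem FM.hex {E : Set M} {ε : Nat → M} {xs : List M} (f : FM t22 ε xs E) {p : Pt} (hp : p ∈ h22) :
    ∃ l, Clq E (pv xs p :: l) ∧ l.length = 2 ∧ (pv xs p :: l22.map (pv xs)).prod = l.prod := by
  have b := (f.base.sub (List.Sublist.map _ (by decide : (h22 ++ l22).Sublist _))).perm (List.Perm.map _ (h22_erase p hp).1)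
  rw [f.hexad, List.map_append] at b
  exact ⟨_, b.1.sub (List.Sublist.cons_cons _ (List.sublist_append_right _ _)), by rw [List.length_map, (h22_erase p hp).2],
    b.1.prod_eq f.tt b.2.symm⟩
theorem M22.nh {E : Set M} (h : M22 E) {c : M} {l l' : List M} (a : NH E c l) (b : NH E c l') :
    ∃ g, Commute c g ∧ l.map (fun x => g * x * g⁻¹) = l' := by
  obtain ⟨ε, xs, f⟩ := h.fm
  have k : ∀ c l, NH E c l → ∃ g, (c :: l).map (fun x => g * x * g⁻¹) = (y22 :: l22).map (pv xs) := fun c l a => by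
    obtain ⟨g, hg⟩ := f.gc3 l (clq_cons'.1 a.1).2 a.2.1
    have q := (fiso_conj f.cj g).clq a.1
    rw [← cons_map_conj, hg] at q
    obtain ⟨k, k1, k2⟩ := f.tr4 _ ⟨(clq_cons'.1 q).1, fun m => by
      obtain ⟨p, hp, e⟩ := List.mem_map.1 m
      obtain ⟨s, s1, s2, s3⟩ := f.hex hp
      rw [e, ← hg, cons_map_conj, map_conj_prod] at s3
      exact a.2.2 _ ((fiso_conj f.cj g⁻¹).clq (clq_cons'.1 s1).2) (by simpa using s2) (by rw [map_conj_prod, ← s3]; group)⟩
    exact ⟨k * g, by rw [map_conj_mul, ← cons_map_conj, hg, ← cons_map_conj, map_conj_eq k1, List.mem_singleton.1 k2]; rfl⟩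
  obtain ⟨g, e⟩ := k c l a
  obtain ⟨g', e'⟩ := k c l' b
  have : (c :: l).map (fun x => g'⁻¹ * g * x * (g'⁻¹ * g)⁻¹) = c :: l' := by
    rw [map_conj_mul, e, ← e', ← map_conj_mul]; simp
  exact ⟨_, (conj_eq_iff_commute.1 (List.cons.inj this).1).symm, (List.cons.inj this).2⟩
theorem M22.hex {E : Set M} (h : M22 E) {c : M} {l : List M} (q : Clq E (c :: l)) (e : l.length = 3) (n : ¬ NH E c l) :
    ∃ l', Clq E (c :: l') ∧ l'.length = 2 ∧ (c :: l).prod = l'.prod := by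
  obtain ⟨ε, xs, f, p, hp, k⟩ := h.w4 q (by simp [e])
  obtain ⟨rfl, rfl⟩ := List.cons.inj k
  rcases List.mem_cons.1 hp with rfl | hp
  · exact absurd ⟨q, e, fun l' c' e' k => absurd (h.nr.perm3 h.tt c' f.four.1 (by omega) (by rw [e']; rfl)
      (k.symm.trans f.four.2)).length_eq (by rw [e', List.length_map]; decide)⟩ n
  · exact f.hex hp

theorem fus22 {E : Set M} (h : M22 E) (sq : SqC E 1 true ∧ SqC E 2 false ∧ SqC E 2 true) {c : M} (hc : c ∈ E) {d : G} {f : M → G}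
    (t : Tl c d f) (w : ∃ g : G, g * d * g⁻¹ ∈ Subgroup.centralizer {d} ∧ g * d * g⁻¹ ≠ d) :
    ∃ ρ, Res (conjugatesOf d) d U6 ρ := by
  obtain ⟨π, r⟩ := h.lv.res c hc
  have tt := h.tt
  have c2 := tt_sq tt hc
  have ns : ∀ x, Commute c x → x * x ≠ c := fun x hx e => tt_ne_one tt hc (e.symm.trans (r.sq tt hc u6_iv hx (.inr e)))
  have q1 : Clq E [c] := ⟨by simpa using hc, by simp⟩
  obtain ⟨s, cs, ls, ps⟩ := h.rl7.hept h.lv.tg.2.1 q1 h.lv.gt_one (by simp)
  obtain ⟨t1, t2, t3, s1, s2, s3, rfl⟩ : ∃ t1 t2 t3 s1 s2 s3, s = [t1, t2, t3, s1, s2, s3] := by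
    match s, (show s.length = 6 by simp at ls; omega) with
    | [t1, t2, t3, s1, s2, s3], _ => exact ⟨_, _, _, _, _, _, rfl⟩
  have nh : ∀ l l', l.length = 3 → l'.length = 3 → ([c] ++ [t1, t2, t3, s1, s2, s3]).Perm (c :: l ++ l') →
      NH E c l ∧ (c :: l).prod = l'.prod := fun l l' a b p =>
    have k := Clq.prod_eq' tt cs ps p
    ⟨⟨(cs.perm p).1.sub (List.sublist_append_left _ _), a, fun u c' e' q =>
      absurd (h.nr.perm3 tt c' k.1 (by omega) (by omega) (q.symm.trans k.2)).length_eq (by omega)⟩, k.2⟩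
  have n1 := nh [t1, t2, t3] [s1, s2, s3] rfl rfl (List.Perm.refl _)
  have n2 := nh [s1, s2, s3] [t1, t2, t3] rfl rfl (List.Perm.cons _ (List.perm_append_comm (l₁ := [t1, t2, t3])))
  have n3 := nh [t1, t2, s1] [t3, s2, s3] rfl rfl (.cons _ (.cons _ (.cons _ (.swap _ _ _))))
  have cp : ∀ l, Clq E (c :: l) → Commute c l.prod := fun l a =>
    Commute.list_prod_right _ _ fun y hy => a.comm c (by simp) y (by simp [hy])
  have a5 : ∀ l l', NH E c l → NH E c l' → f l.prod ∈ conjugatesOf d → f l'.prod ∈ conjugatesOf d := fun l l' a b m => by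
    obtain ⟨g, cg, rfl⟩ := h.nh a b
    rw [map_conj_prod, t.cj cg (cp l a.1)]; exact conj_mem_conjugatesOf _ _ m
  have c5 : ∀ l, NH E c l → ∃ l', NH E c l' ∧ c * l.prod = l'.prod := fun l a => by
    obtain ⟨g, cg, rfl⟩ := h.nh n1.1 a
    have e : g * c * g⁻¹ = c := conj_eq_iff_commute.2 cg.symm
    refine ⟨[s1, s2, s3].map fun x => g * x * g⁻¹, ⟨e ▸ (fiso_conj h.lv.tg.2.1 g).clq n2.1.1, rfl, fun u c' e' q => ?_⟩, ?_⟩
    · refine n2.1.2.2 _ ((fiso_conj h.lv.tg.2.1 g⁻¹).clq c') (by simpa using e') ?_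
      rw [map_conj_prod, ← q, ← e, cons_map_conj, map_conj_prod, e]; group
    · rw [map_conj_prod, map_conj_prod, ← n1.2, List.prod_cons (a := c), ← conj_mul, e]
  have cc : ∀ x, Commute c x → f x ∈ conjugatesOf d → x = c ∨ x ∈ Nb E [c] ∨ ∃ l, NH E c l ∧ x = l.prod := fun x hx m => by
    obtain ⟨g, e⟩ := isConj_iff.1 m
    have x2 : x * x = 1 := t.inj _ (hx.mul_right hx) (by
      rw [t.mul _ _ hx hx, ← e, conj_mul, ← t.self, ← t.mul _ _ (Commute.refl c) (Commute.refl c), c2, t.one]; simp)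
    obtain ⟨l, a, b, e⟩ := r.cases u6_iv hx (by rw [← r.mul _ _ hx hx, x2, r.one])
    have q := clq_cons.2 ⟨hc, a⟩
    match l, a, b, e, q with
    | [], _, _, .inl e, _ => exact absurd m (t.sqn ns ⟨1, Commute.one_right c, by simp [e]⟩)
    | [], _, _, .inr e, _ => exact .inl (by simpa using e)
    | [y], a, _, .inl e, _ => exact .inr (.inl (by simpa [e] using a.1 y (by simp)))
    | [y], _, _, .inr e, q => exact absurd m (t.sqn ns (e ▸ sq.1 _ _ q rfl))
    | [_, _], _, _, .inl e, q => exact absurd m (t.sqn ns (e ▸ sq.2.1 _ _ q rfl))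
    | [_, _], _, _, .inr e, q => exact absurd m (t.sqn ns (e ▸ sq.2.2 _ _ q rfl))
    | [u, v, y], _, _, e, q =>
      by_cases n : NH E c [u, v, y]
      · exact .inr (.inr (e.elim (fun e => ⟨_, n, e⟩) fun e => e ▸ c5 _ n))
      · obtain ⟨l', a, b, k⟩ := h.hex q rfl n
        refine absurd m (t.sqn ns (e.elim (fun e => ?_) fun e => (e.trans k) ▸ sq.2.1 _ _ a b))
        have := sq.2.2 _ _ a b
        rwa [cond, List.prod_cons, ← k, List.prod_cons, tt_mul_mul tt hc, ← e] at this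
  have nb : ∀ x ∈ Nb E [c], Commute c x := fun x hx => (mem_nb1.1 hx).2.2
  have a1 : ∀ x ∈ Nb E [c], ∀ y ∈ Nb E [c], f x ∈ conjugatesOf d → f y ∈ conjugatesOf d := fun x a y b m => by
    obtain ⟨g, hg, rfl⟩ := GT.nb (h.gts 2 (by norm_num)) q1 a b
    rw [t.cj (mem_cn.1 hg c (by simp)) (nb x a)]; exact conj_mem_conjugatesOf _ _ m
  have n5 : ∀ l, NH E c l → f l.prod ∉ conjugatesOf d := fun l a m => by
    have R : ∀ X ∈ conjugatesOf d, ∀ Y ∈ conjugatesOf d, ∀ g, g * X * g⁻¹ = d → Commute X Y → X ≠ Y → X * Y ∉ conjugatesOf d →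
        ∃ y ∈ Nb E [c], f y = g * Y * g⁻¹ := fun X _ Y hY g e k n1 n2 => by
      obtain ⟨y, cy, e'⟩ := t.sur (g * Y * g⁻¹) (e ▸ (commute_conj_iff _ _ _).2 k)
      rcases cc y cy (e' ▸ conj_mem_conjugatesOf _ _ hY) with k | k | ⟨u, k, rfl⟩
      · exact absurd (conj_inj (e.trans (by rw [← e', k, t.self]))) n1
      · exact ⟨y, k, e'⟩
      · obtain ⟨u', k1, k2⟩ := c5 u k
        have := a5 _ _ a k1 m
        rw [← k2, t.mul _ _ (Commute.refl c) cy, t.self, e', ← e, conj_mul, e] at this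
        exact absurd (by simpa [mul_assoc] using conj_mem_conjugatesOf g⁻¹ _ this) n2
    have cs' : Clq (Nb E [c]) [t1, t2, t3, s1, s2, s3] := (clq_cons.1 cs).2
    have nd := cs.nodup
    simp only [List.cons_append, List.nil_append, List.nodup_cons, List.mem_cons, not_or] at nd
    have h1 := cs'.1 t1 (by simp)
    have S2 : ∀ u v, [u, v].Sublist [t1, t2, t3, s1, s2, s3] → f (u * v) ∉ conjugatesOf d := fun u v p =>
      t.sqn ns (by simpa using sq.2.1 _ _ (clq_cons.2 ⟨hc, cs'.sub p⟩) rfl)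
    have mX := a5 _ _ a n1.1 m
    have mY := a5 _ _ a n3.1 m
    obtain ⟨g, e⟩ := isConj_iff.1 (IsConj.symm mX)
    have e12 : [t1, t2, t3].prod * [t1, t2, s1].prod = t3 * s1 := by
      have := (cs'.sub (l' := [t1, t2]) (by simp)).sq (tt_subset tt nb_sub)
      simp only [List.prod_cons, List.prod_nil, mul_one] at this ⊢
      rw [← mul_assoc t1, ← mul_assoc t1 t2 s1, ← mul_assoc, ((cs'.comm t1 (by simp) t3 (by simp)).mul_left
        (cs'.comm t2 (by simp) t3 (by simp))).eq, mul_assoc t3, this, mul_one]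
    obtain ⟨y, hy, e'⟩ := R _ mX _ mY g e ((t.comm (cp _ n1.1.1) (cp _ n3.1.1)).2 (Commute.list_prod_left _ _ fun u hu =>
      Commute.list_prod_right _ _ fun v hv => cs'.comm u (by simp at hu ⊢; tauto) v (by simp at hv ⊢; tauto)))
      (fun e => nd.2.2.2.1.1 (by simpa using t.eq (cp _ n1.1.1) (cp _ n3.1.1) e))
      (by rw [← t.mul _ _ (cp _ n1.1.1) (cp _ n3.1.1), e12]; exact S2 _ _ (by simp))
    have m1 := a1 y hy t1 h1 (e' ▸ conj_mem_conjugatesOf _ _ mY)
    obtain ⟨g, e⟩ := isConj_iff.1 (IsConj.symm m1)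
    obtain ⟨u, hu, eu⟩ := R _ m1 d (IsConj.refl d) g e (t.mem (nb _ h1)).symm
      (fun e => nd.1.1 (t.eq (nb _ h1) (Commute.refl c) (e.trans t.self.symm)).symm) (by
        rw [← (t.mem (nb _ h1)).eq, ← t.self, ← t.mul _ _ (Commute.refl c) (nb _ h1), t.self]
        exact t.sqn ns (by simpa using sq.1 c [t1] (clq_cons.2 ⟨hc, cs'.sub (by simp)⟩) rfl))
    obtain ⟨v, hv, ev⟩ := R _ m1 _ mX g e ((t.comm (nb _ h1) (cp _ n1.1.1)).2 ((clq_cons'.1 n1.1.1).2.comm_prod (by simp)))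
      (fun e => S2 t2 t3 (by simp) (by
        have := t.eq (nb _ h1) (cp _ n1.1.1) e
        simp only [List.prod_cons, List.prod_nil, mul_one, left_eq_mul] at this
        exact absurd (tt_eq_of_mul_eq_one tt (cs'.1 t2 (by simp)).1 this) nd.2.2.1.1)) (by
        rw [← t.mul _ _ (nb _ h1) (cp _ n1.1.1), List.prod_cons, tt_mul_mul tt h1.1]; simpa using S2 t2 t3 (by simp))
    obtain ⟨l', k1, k2⟩ := c5 _ n1.1
    have uv : Commute u v := (t.comm (nb u hu) (nb v hv)).1 (by rw [eu, ev]; exact (commute_conj_iff _ _ _).2 (t.mem (cp _ n1.1.1)))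
    have := conj_mem_conjugatesOf g _ (a5 _ _ a k1 m)
    rw [← k2, t.mul _ _ (Commute.refl c) (cp _ n1.1.1), t.self, ← conj_mul, ← eu, ← ev, ← t.mul _ _ (nb u hu) (nb v hv)] at this
    by_cases e : u = v
    · exact t.sqn ns ⟨u, nb u hu, by rw [e]⟩ this
    · exact t.sqn ns (by simpa using sq.2.1 c [u, v] (clq_cons.2 ⟨hc, ⟨by simp [hu, hv], by simp [e, uv]⟩⟩) rfl) this
  obtain ⟨g, w1, w2⟩ := w
  obtain ⟨x, cx, e⟩ := t.sur _ (mem_cent1.1 w1)
  have m : f x ∈ conjugatesOf d := e ▸ isConj_iff.2 ⟨g, rfl⟩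
  have cc' := fun x hx m n => ((cc x hx m).resolve_left n).resolve_right fun ⟨l, a, e⟩ => n5 l a (e ▸ m)
  refine t.res r (.inl rfl) c2 (fun y cy => ?_) (one_mem _)
  rw [one_mul]
  exact ⟨fun ⟨a, b⟩ => cc' y cy a b, fun a => ⟨a1 x (cc' x cx m fun k => w2 (by rw [← e, k, t.self])) y a m, (mem_nb1.1 a).2.1⟩⟩
end H28
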