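import Cfsg.Agent.H28.Mt4

/-! Groups with an involution centraliser `2·U₆(2)` or `2·Fi₂₂`. -/
set_option maxRecDepth 100000
namespace H28
open Cfsg H27
noncomputable section
universe u
variable {G : Type u} {M : Type*} [Group G] [Group M]

def Hit (A : Set M) (k : Nat) (x b : M) (P : List M) : Prop :=
  x ∈ A → b ∈ A → ∀ S, Good (Nb A [x]) k S → (∀ p ∈ P, p ∈ S) → ∃ y ∈ S, Commute b y
theorem Hit.of_trn {A C S : Set M} {k : Nat} {x b : M} {P R : List M} (t : Trn A C (x :: b :: P) R)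
    (h : ∀ p ∈ R, Hit A k x b (p :: P)) (hx : x ∈ A) (hb : b ∈ A) (g : Good (Nb A [x]) k S) (hP : ∀ p ∈ P, p ∈ S) {y : M}
    (hy : y ∈ C) (hS : y ∈ S) : ∃ y ∈ S, Commute b y := by
  obtain ⟨τ, a, f, c⟩ := t y hy
  have k := (a.nb1 hx).good g
  rw [f x (by simp)] at k
  obtain ⟨_, ⟨z, hz, rfl⟩, e⟩ := h _ c hx hb _ k fun p hp => (List.mem_cons.1 hp).elim (fun e => ⟨y, hS, e.symm⟩)
    fun hp => ⟨p, hP p hp, f p (by simp [hp])⟩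
  exact ⟨z, hz, (a.comm hb (g.sub hz).1).1 (by rwa [f b (by simp)])⟩
def TD.hitChk (T : TD) (b : Pt) (P : List Pt) (r : Nat) : Bool := and' (T.ok (b :: P)) (nz (Nat.land (T.clo P r) (T.pn b)))
def TD.hbrChk (T : TD) (a k : Nat) (x b : Pt) (P : List Pt) (r : Nat) (l : List Pt) (y : Pt) (ws : List Pt)
    (Ws : List (List Nat)) (R : List Pt) (s : Nat) : Bool :=
  and' (and' (and' (T.ok l) (T.ok (y :: ws))) (Nat.beq l.length k)) (force (T.nb l (T.nb [x] a)) fun N =>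
    and' (and' (T.clqChk (T.clo P r) l) (tb N (T.pi y))) (and' (subM (T.bits ws) (Nat.land N (T.pn y)))
      (force (T.pp ws N) fun C => T.trChk a C (x :: b :: P) Ws R s)))
def TD.diaChk (T : TD) (a : Nat) (x b : Pt) (W1 : List (List Nat)) (r1 : Nat) (W2 : List (List Nat)) (r2 : Nat)
    (W3 : List (List Nat)) (R : List Pt) (r3 : Nat) : Bool :=
  and' (and' (T.trChk a a [] W1 [x] r1) (T.trChk a (dif a (T.pn x)) [x] W2 [b] r2)) (T.trChk a (T.nb [x] a) [x, b] W3 R r3)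
namespace TM
variable {T : TD} {ε : Nat → M} {xs : List M} {E A : Set M} {a k : Nat} {x b : Pt} {P : List Pt}
theorem hit (h : TM T ε xs E) (r : Nat) (hc : T.hitChk b P r = true) : Hit A k (pv xs x) (pv xs b) (P.map (pv xs)) :=
  fun _ _ S g hS => by
    simp only [TD.hitChk, and'_eq, Bool.and_eq_true, TD.ok_iff, List.forall_mem_cons] at hc
    obtain ⟨j, hj⟩ := nz_ex hc.2
    rw [land_iff, h.pn_iff hc.1.1] at hj
    exact ⟨_, (h.clo_sub hc.1.2 g.clo hS r hj.1).2, hj.2.2⟩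
theorem hbr (h : TM T ε xs E) (ra : Rep T ε a A) (cA : Clo A) (r : Nat) (l : List Pt) (y : Pt) (ws : List Pt)
    (Ws : List (List Nat)) (R : List Pt) (s : Nat) (hc : T.hbrChk a k x b P r l y ws Ws R s = true)
    (hR : ∀ p ∈ R, Hit A k (pv xs x) (pv xs b) ((p :: P).map (pv xs))) : Hit A k (pv xs x) (pv xs b) (P.map (pv xs)) :=
  fun hx hb S g hS => by
    simp only [TD.hbrChk, and'_eq, Bool.and_eq_true, TD.ok_iff, force_eq, beq_iff, List.forall_mem_cons] at hc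
    obtain ⟨⟨⟨hl, hy, hw⟩, h2⟩, ⟨h3, h4⟩, h5, h6⟩ := hc
    have h1 := (TD.trChk_ok h6).1
    simp only [List.forall_mem_cons] at h1
    have rN := h.rep_nb hl (h.rep_nb (l := [x]) (by simpa using h1.1) ra)
    obtain ⟨z, a1, a2, a3⟩ := g.ex _ (by simpa using h2) (h.clq (fun j hj => (h.clo_sub h1.2.2 g.clo hS r hj).2) hl h3) _
      ((h.mem_iff rN hy).1 h4)
    refine Hit.of_trn (h.trn ra cA (h.rep_pp hw rN) h6) (fun p hp => ?_) hx hb g hS ⟨a1, fun p hp => ?_⟩ a2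
    · obtain ⟨q, hq, rfl⟩ := List.mem_map.1 hp
      exact hR q hq
    · have := subM_iff h5 (TD.bits_iff.2 ⟨p, hp, rfl⟩)
      rw [land_iff, rN.2, h.pn_iff hy, h.pi_eq (hw p hp)] at this
      exact a3 _ this.1.2 this.2.2.symm
theorem dia (h : TM T ε xs E) (r : Rep T ε a A) (c : Clo A) (x b : Pt) (W1 : List (List Nat)) (r1 : Nat) (W2 : List (List Nat))
    (r2 : Nat) (W3 : List (List Nat)) (R : List Pt) (r3 : Nat) (hc : T.diaChk a x b W1 r1 W2 r2 W3 R r3 = true)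
    (hR : ∀ p ∈ R, Hit A k (pv xs x) (pv xs b) ([p].map (pv xs))) : Dia A k := fun p hp q hq n S g ⟨y, hy⟩ => by
  simp only [TD.diaChk, and'_eq, Bool.and_eq_true] at hc
  obtain ⟨⟨h1, h2⟩, h3⟩ := hc
  have hx := (TD.trChk_ok h2).1 x List.mem_cons_self
  obtain ⟨τ, t, e, d⟩ := (h.trn r c r h1).pair (C := fun x => {y | y ∈ A ∧ ¬ Commute x y})
    (fun _ a _ hp _ hq => ⟨a.mem hq.1, mt (a.comm hp hq.1).1 hq.2⟩) (h.trn r c (h.rep_dif r hx) h2) hp ⟨hq, n⟩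
  replace d := List.mem_singleton.1 d
  have k := (t.nb1 hp).good g
  rw [e] at k
  obtain ⟨_, ⟨z, hz, rfl⟩, e'⟩ := Hit.of_trn (P := []) (h.trn r c (h.rep_nb (l := [x]) (by simpa using hx) r) h3)
    (List.forall_mem_map.2 hR) (e ▸ t.mem hp) (d ▸ t.mem hq) k (by simp) (k.sub ⟨y, hy, rfl⟩) ⟨y, hy, rfl⟩
  exact ⟨z, hz, (t.comm hq (g.sub hz).1).1 (d ▸ e')⟩
end TM

theorem dia_u_1 : Hit U22 0 (pv fi22X (3, [])) (pv fi22X (2, [])) (List.map (pv fi22X) [(0, [7, 8, 3, 7, 4, 5, 3, 4, 2, 3, 7, 8, 3, 4, 5, 2, 3, 4, 1, 2, 3, 7, 6, 5, 4, 3, 2, 1]), (2, [4, 3])]) := t22M.hbr u22R u22C 0 [] (0, [4, 3, 7, 8, 3, 4, 1, 2, 3, 7, 5, 4, 3, 2, 1]) [(3, [7, 6, 5, 4]), (0, [1, 2, 3, 7, 4, 3, 2, 1]), (3, [8, 7, 5, 4])] [] [(0, [4, 3, 7, 8, 3, 4, 1, 2, 3, 7, 5, 4, 3, 2, 1]), (0, [4, 3, 7, 8, 2, 3, 4, 1, 2, 3, 7, 6, 5, 4, 3, 2, 1]), (0, [7, 5, 3, 4, 2,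 3, 7, 8, 7, 3, 4, 1, 2, 3, 7, 6, 5, 4, 3, 2, 1]), (0, [5, 6, 4, 5, 3, 4, 2, 3, 7, 8, 4, 5, 2, 3, 4, 1, 2, 3, 7, 6, 5, 4, 3, 2, 1])] 0 (by decide +kernel) (List.forall_mem_cons.2 ⟨(t22M.hit 1 (by decide +kernel)), (List.forall_mem_cons.2 ⟨(t22M.hit 1 (by decide +kernel)), (List.forall_mem_cons.2 ⟨(t22M.hit 0 (by decide +kernel)), (List.forall_mem_cons.2 ⟨(t22M.hit 1 (by decide +kernel)), (fun _ h => by cases h)⟩)⟩)⟩)⟩)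
theorem dia_u_2 : Hit U22 0 (pv fi22X (3, [])) (pv fi22X (2, [])) (List.map (pv fi22X) [(0, [7, 8, 3, 7, 4, 5, 3, 4, 2, 3, 7, 8, 3, 7, 4, 5, 3, 4, 1, 2, 3, 7, 6, 5, 4, 3, 2, 1]), (2, [4, 3])]) := t22M.hbr u22R u22C 0 [] (0, [4, 3, 7, 8, 3, 4, 1, 2, 3, 7, 5, 4, 3, 2, 1]) [(3, [7, 6, 5, 4]), (0, [1, 2, 3, 7, 4, 3, 2, 1]), (3, [8, 7, 5, 4])] [] [(0, [4, 3, 7, 8, 3, 4, 1, 2, 3, 7, 5, 4, 3, 2, 1]), (0, [4, 3, 7, 8, 2, 3, 4, 1, 2, 3, 7, 6, 5, 4, 3, 2, 1]), (0, [7, 5, 3, 4, 2, 3, 7, 8, 7, 3, 4, 1, 2, 3, 7, 6, 5, 4, 3, 2, 1]), (0, [5, 6, 4, 5, 3, 4, 2, 3, 7, 8, 4, 5, 2, 3, 4, 1, 2, 3, 7, 6, 5, 4, 3, 2, 1])] 0 (by decide +kernel) (List.forall_mem_cons.2 ⟨(t22M.hit 1 (by decide +kernel)), (List.forall_mem_cons.2 ⟨(t22M.hit 1 (by decide +kernel)), (List.forall_mem_cons.2 ⟨(t22M.hit 0 (by decide +kernel)), (List.forall_mem_cons.2 ⟨(t22M.hit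 1 (by decide +kernel)), (fun _ h => by cases h)⟩)⟩)⟩)⟩)
theorem dia_u_3 : Hit U22 0 (pv fi22X (3, [])) (pv fi22X (2, [])) (List.map (pv fi22X) [(2, [4, 3])]) := t22M.hbr u22R u22C 0 [] (5, []) [(5, []), (8, []), (2, [7, 3])] [] [(5, []), (2, [6, 5, 4, 3]), (0, [7, 8, 3, 7, 4, 5, 3, 4, 2, 3, 7, 8, 3, 4, 5, 2, 3, 4, 1, 2, 3, 7, 6, 5, 4, 3, 2, 1]), (0, [7, 8, 3, 7, 4, 5, 3, 4, 2, 3, 7, 8, 3, 7, 4, 5, 3, 4, 1, 2, 3, 7, 6, 5, 4, 3, 2, 1])] 0 (by decide +kernel) (List.forall_mem_cons.2 ⟨(t22M.hit 0 (by decide +kernel)), (List.forall_mem_cons.2 ⟨(t22M.hit 1 (by decide +kernel)), (List.forall_mem_cons.2 ⟨dia_u_1, (List.forall_mem_cons.2 ⟨dia_u_2, (fun _ h => by cases h)⟩)⟩)⟩)⟩)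
theorem dia_u : Dia U22 0 := t22M.dia u22R u22C (3, []) (2, []) [[2], [4], [7], [3], [5], [8], [5, 4, 3, 7, 2, 3, 4, 1, 2, 3, 7, 5, 4, 3, 2, 1, 0, 1, 2, 3, 4, 5, 7, 3, 2, 1, 4, 3, 2, 7, 3, 4, 5], [6]] 4 [[3], [4, 3, 2, 3, 4], [2, 3, 7, 8, 1, 2, 3, 7, 5, 4, 3, 2, 1, 0, 1, 2, 3, 4, 5, 7, 3, 2, 1, 8, 7, 3, 2], [7, 6, 5, 4, 3, 4, 5, 6, 7], [5], [6]] 5 [[6, 5, 6], [7, 3, 4, 2, 3, 7, 8, 2, 3, 4, 1, 2, 3, 7, 5, 4, 3, 2, 1, 0, 1, 2, 3, 4, 5, 7, 3, 2, 1, 4, 3, 2, 8, 7, 3, 2, 4, 3, 7], [5], [8], [4, 3, 7, 5, 4, 3, 2, 3, 4, 5, 7, 3, 4]] [(5, []), (2, [4, 3])] 3 (by decide +kernel) (List.forall_mem_cons.2 ⟨(t22M.hit 0 (by decide +kernel)), (List.forall_mem_cons.2 ⟨dia_u_3, (fun _ h => by cases h)⟩)⟩)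
theorem dia_e_1 : Hit E22 1 (pv fi22X (0, [])) (pv fi22X (1, [])) (List.map (pv fi22X) [(0, [8, 1, 2, 3, 7, 5, 4, 3, 2, 1]), (2, [3, 7, 4, 3]), (2, [])]) := t22M.hbr e22R e22C 0 [(2, [])] (5, []) [(7, []), (8, []), (5, [])] [] [(5, []), (4, [6, 5]), (0, [3, 7, 8, 2, 3, 7, 4, 5, 3, 4, 2, 3, 7, 8, 3, 7, 4, 5, 3, 4, 1, 2, 3, 7, 6, 5, 4, 3, 2, 1]), (0, [3, 7, 8, 2, 3, 7, 4, 5, 3, 4, 2, 3, 7, 8, 3, 4, 5, 2, 3, 4, 1, 2, 3, 7, 6, 5, 4, 3, 2, 1])] 0 (by decide +kernel) (List.forall_mem_cons.2 ⟨(t22M.hit 0 (by decide +kernel)), (List.forall_mem_cons.2 ⟨(t22M.hit 0 (by decide +kernel)), (List.forall_mem_cons.2 ⟨(t22M.hit 1 (by decide +kernel)), (List.forall_mem_cons.2 ⟨(t22M.hit 1 (by decide +kernel)), (fun _ h => by cases h)⟩)⟩)⟩)⟩)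
theorem dia_e_2 : Hit E22 1 (pv fi22X (0, [])) (pv fi22X (1, [])) (List.map (pv fi22X) [(2, [3, 7, 4, 3]), (2, [])]) := t22M.hbr e22R e22C 0 [(2, [])] (0, [8, 1, 2, 3, 7, 5, 4, 3, 2, 1]) [(4, [5]), (0, [1, 2, 3, 7, 4, 3, 2, 1]), (7, [8])] [[4], [6], [7], [3, 4, 5, 2, 3, 4, 1, 2, 3, 7, 6, 5, 4, 3, 2, 1, 0, 1, 2, 3, 4, 5, 6, 7, 3, 2, 1, 4, 3, 2, 5, 4, 3]] [(0, [8, 1, 2, 3, 7, 5, 4, 3, 2, 1])] 1 (by decide +kernel) (List.forall_mem_cons.2 ⟨dia_e_1, (fun _ h => by cases h)⟩)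
theorem dia_e_3 : Hit E22 1 (pv fi22X (0, [])) (pv fi22X (1, [])) (List.map (pv fi22X) [(2, [])]) := t22M.hbr e22R e22C 0 [(2, [])] (2, [3, 7, 4, 3]) [(4, []), (2, [8, 3, 7, 5, 4, 3]), (7, [])] [[5], [6, 5, 4, 5, 6], [3, 4, 2, 3, 7, 8, 1, 2, 3, 7, 4, 3, 2, 1, 0, 1, 2, 3, 4, 7, 3, 2, 1, 8, 7, 3, 2, 4, 3]] [(2, [3, 7, 4, 3])] 2 (by decide +kernel) (List.forall_mem_cons.2 ⟨dia_e_2, (fun _ h => by cases h)⟩)
theorem dia_e : Dia E22 1 := t22M.dia e22R e22C (0, []) (1, []) [[1], [0], [2], [3], [4], [7], [5], [8], [6]] 6 [[0], [2], [3, 7, 8, 4, 3, 7, 5, 4, 3, 2, 3, 4, 5, 7, 3, 4, 8, 7, 3], [1, 2, 3, 7, 6, 5, 4, 3, 2, 1, 0, 1, 2, 3, 4, 5, 6, 7, 3, 2, 1], [4, 3, 4], [6]] 5 [[4, 3, 4], [5, 4, 2, 3, 7, 8, 1, 2, 3, 7, 4, 3, 2, 1, 0, 1, 2, 3, 4, 7, 3, 2, 1, 8, 7, 3, 2, 4, 5], [7, 6, 5, 4, 3, 4, 5, 6, 7], [7, 3, 7], [8], [3]] [(2, []), (3,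 [])] 4 (by decide +kernel) (List.forall_mem_cons.2 ⟨dia_e_3, (List.forall_mem_cons.2 ⟨(t22M.hit 0 (by decide +kernel)), (fun _ h => by cases h)⟩)⟩)

theorem u6_fiso : ∃ π, Res E22 (ev fi22X [0]) U6 π := lv22.res _ (IsConj.refl _)
theorem ru22 : Ru U6 0 := by
  obtain ⟨π, r⟩ := u6_fiso
  obtain ⟨τ, f, -, e⟩ := r.fi.symm
  have q : Clq E22 [ev fi22X [0]] := ⟨List.forall_mem_singleton.2 (IsConj.refl _), by simp⟩
  refine ⟨f.tt (tt_subset m22.tt nb_sub) fun x hx => ?_, psu_center, fun a ha b hb => ?_, f.pg u22_pg, f.locA (locA_zero u22_up),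
    f.dia dia_u, _, r.fi.mem ((t22M.mem_iff u22R (p := (3, [])) (by decide)).1 (by decide +kernel))⟩
  · obtain ⟨y, hy, rfl⟩ := r.fi.surj hx
    have c := (mem_nb1.1 hy).2.2
    exact orderOf_eq_prime (by rw [pow_two, ← r.mul _ _ c c, tt_sq m22.tt hy.1, r.one]) fun k =>
      ((r.ker _ c).1 k).elim (tt_ne_one m22.tt hy.1) (mem_nb1.1 hy).2.1
  · obtain ⟨x, hx, rfl⟩ := r.fi.surj ha
    obtain ⟨y, hy, rfl⟩ := r.fi.surj hb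
    obtain ⟨g, hg, rfl⟩ := GT.nb (m22.gts 2 (by norm_num)) q hx hy
    exact ⟨π g, (r.cj (mem_cn.1 hg _ (by simp)) (mem_nb1.1 hx).2.2).symm⟩
theorem ru23 : Ru E22 1 := ⟨m22.tt, fi22_center, lv22.cls, e22_pg, locA22, dia_e, m22.ne⟩
theorem m22_of_lv [Finite G] {D : Set G} (h : Lv D U6) (ne : D.Nonempty) : M22 D := by
  obtain ⟨d, hd⟩ := ne
  obtain ⟨π, r⟩ := u6_fiso
  obtain ⟨σ, f⟩ := fiso22 h.tg (fun y hy => let ⟨_, t⟩ := h.loc y hy; ⟨_, r.fi.trans t⟩) hd fun y hy => isConj_iff.2 (h.cls d hd y hy)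
  obtain ⟨e, he, -⟩ := equiv_of_fiso h.tg h.cen e22_class fi22_center f
  exact m22_equiv h.tg e he
theorem m23_of_lv [Finite G] {D : Set G} (h : Lv D E22) (ne : D.Nonempty) : M23 D := by
  obtain ⟨d, hd⟩ := ne
  obtain ⟨σ, f⟩ := fiso23 h.tg h.loc hd fun y hy => isConj_iff.2 (h.cls d hd y hy)
  obtain ⟨e, he, -⟩ := equiv_of_fiso h.tg h.cen e23_class fi23_center f
  exact m23_equiv h.tg e he

/-- a group of type `M̃(22)` is of type `M(22)` -/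
theorem m22_tilde [Finite G] {d : G} (hd : orderOf d = 2) (hq : IsQuasisimple (Subgroup.centralizer {d}))
    [((Subgroup.zpowers d).subgroupOf (Subgroup.centralizer {d})).Normal] {F : Type} [Field F] [Fintype F] (hF : Fintype.card F = 4)
    (e : Subgroup.centralizer {d} ⧸ (Subgroup.zpowers d).subgroupOf (Subgroup.centralizer {d}) ≃* PSU 6 F 2)
    (w : ∃ g : G, g * d * g⁻¹ ∈ Subgroup.centralizer {d} ∧ g * d * g⁻¹ ≠ d) : M22 (conjugatesOf d) := by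
  obtain ⟨c, hc, f, t⟩ := tl22 hd hq hF e
  obtain ⟨ρ, r⟩ := fus22 m22 sq22 hc t w
  exact m22_of_lv ((lw_of_res hd r).top ru22 (IsConj.refl d) fun _ _ a b => (m22_of_lv a b).fn) ⟨d, IsConj.refl d⟩
/-- a group of type `M̃(23)` is of type `M(23)` -/
theorem m23_tilde [Finite G] {d : G} (hd : orderOf d = 2) (hq : IsQuasisimple (Subgroup.centralizer {d}))
    [((Subgroup.zpowers d).subgroupOf (Subgroup.centralizer {d})).Normal]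
    (e : Subgroup.centralizer {d} ⧸ (Subgroup.zpowers d).subgroupOf (Subgroup.centralizer {d}) ≃* Spor.Fi22)
    (w : ∃ g : G, g * d * g⁻¹ ∈ Subgroup.centralizer {d} ∧ g * d * g⁻¹ ≠ d) : M23 (conjugatesOf d) := by
  obtain ⟨c, hc, f, t⟩ := tl23 hd hq e
  obtain ⟨ρ, r⟩ := fus23 lv23 m22.iv (fun m hm => m23.gts m (by omega)) m23.rl7 sq23 hc t w
  exact m23_of_lv ((lw_of_res hd r).top ru23 (IsConj.refl d) fun _ _ a b => (m23_of_lv a b).fn) ⟨d, IsConj.refl d⟩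

/-- involutions of the residue lift to involutions -/
theorem Lv.lift [Finite G] {D : Set G} {U : Set M} (h : Lv D U) (iv : IV U 3) {d : G} (hd : d ∈ D)
    [((Subgroup.zpowers d).subgroupOf (Subgroup.centralizer {d})).Normal] :
    (∀ x : Subgroup.centralizer {d} ⧸ (Subgroup.zpowers d).subgroupOf (Subgroup.centralizer {d}), orderOf x = 2 →
      ∃ y : Subgroup.centralizer {d}, orderOf y = 2 ∧ QuotientGroup.mk y = x) ∧ ¬ ∃ g : G, g ^ 2 = d := by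
  obtain ⟨π, r⟩ := h.res d hd
  refine ⟨fun x hx => ?_, fun ⟨g, e⟩ => tt_ne_one h.tg.1 hd (by
    rw [pow_two] at e; exact e.symm.trans (r.sq h.tg.1 hd iv (e ▸ (Commute.refl g).mul_left (Commute.refl g)) (.inr e)))⟩
  obtain ⟨y, rfl⟩ := QuotientGroup.mk_surjective x
  have := pow_orderOf_eq_one (QuotientGroup.mk y : _ ⧸ (Subgroup.zpowers d).subgroupOf _)
  rw [hx, ← QuotientGroup.mk_pow, QuotientGroup.eq_one_iff, Subgroup.mem_subgroupOf, mem_zp2 (h.tg.1.1 d hd), pow_two] at this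
  exact ⟨y, orderOf_eq_prime (Subtype.ext ((pow_two _).trans (r.sq h.tg.1 hd iv (mem_cent1.1 y.2) this)))
    (by rintro rfl; simp at hx), rfl⟩
end
end H28
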