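import Cfsg.Agent.H28.Pg23
/-! Transport of `PGL(2,23) ≤ J₄` along an isomorphism. -/
namespace H28.Pg23
theorem tr {G : Type*} [Group G] (e : G ≃* Cfsg.Spor.J4) : ∃ K : Subgroup G,
    Nonempty (↥K ≃* GL (Fin 2) (ZMod 23) ⧸ Subgroup.center (GL (Fin 2) (ZMod 23))) := by
  obtain ⟨K, ⟨f⟩⟩ := pgl
  exact ⟨K.map e.symm.toMonoidHom, ⟨(e.symm.subgroupMap K).symm.trans f⟩⟩
end H28.Pg23
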