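import Cfsg.Agent.H28.O8
import Cfsg.Agent.H13.LX

/-! Fibred Fischer spaces: the centraliser of a product of commuting transpositions. -/
namespace H28
open Cfsg H27 H22 H23 H23.Form
noncomputable section
variable {G H M : Type*} [Group G] [Group H] [Group M] {D A : Set G} {σ : G → M} {z : G}

/-- the pairs compatible with `σ` -/
def Gd [Finite G] (β : H →* MulAut G) (A : Set G) (σ : G → M) : Subgroup (H × M) where
  carrier := {p | ∀ y ∈ A, β p.1 y ∈ A ∧ σ (β p.1 y) = p.2 * σ y * p.2⁻¹}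
  one_mem' := fun y hy => by simpa using hy
  mul_mem' := fun {a b} ha hb y hy => by
    rw [Prod.fst_mul, map_mul, MulAut.mul_apply, (ha _ (hb y hy).1).2, (hb y hy).2]
    exact ⟨(ha _ (hb y hy).1).1, by simp [mul_assoc]⟩
  inv_mem' := fun {a} ha y hy => by
    obtain ⟨x, hx, rfl⟩ := ((Set.toFinite A).injOn_iff_bijOn_of_mapsTo (fun y hy => (ha y hy).1)).1
      (β a.1).injective.injOn |>.surjOn hy
    rw [Prod.fst_inv, map_inv, MulAut.inv_apply_self, (ha x hx).2]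
    exact ⟨hx, by simp [mul_assoc]⟩
variable [Finite G]
theorem mem_gd {β : H →* MulAut G} {g : H} {m : M} :
    (g, m) ∈ Gd β A σ ↔ ∀ y ∈ A, β g y ∈ A ∧ σ (β g y) = m * σ y * m⁻¹ := Iff.rfl
theorem gam [Finite H] [Finite M] {β : H →* MulAut G} (hc : ∀ m : M, (∀ y ∈ A, Commute m (σ y)) → m ∈ Subgroup.center M)
    {C N : Subgroup H} (sur : ∀ m, ∃ g ∈ C, (g, m) ∈ Gd β A σ) (hN : ∀ g ∈ N, g ∈ C ∧ (g, 1) ∈ Gd β A σ)
    (card : Nat.card C ≤ Nat.card N * Nat.card (M ⧸ Subgroup.center M)) :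
    ∃ Ψ : C →* M ⧸ Subgroup.center M, Function.Surjective Ψ ∧ (∀ g (m : M), Ψ g = m ↔ (g.1, m) ∈ Gd β A σ) ∧
      (∀ g, Ψ g = 1 ↔ g.1 ∈ N) ∧ Nat.card C = Nat.card N * Nat.card (M ⧸ Subgroup.center M) := by
  let Γ : Subgroup (H × M) := Gd β A σ ⊓ C.prod ⊤
  let p1 : Γ →* C := ((MonoidHom.fst H M).comp Γ.subtype).codRestrict C fun p => p.2.2.1
  let p2 : Γ →* M ⧸ Subgroup.center M := (QuotientGroup.mk' _).comp ((MonoidHom.snd H M).comp Γ.subtype)
  have z : ∀ m : M, ((1 : H), m) ∈ Gd β A σ ↔ m ∈ Subgroup.center M := fun m =>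
    ⟨fun k => hc m fun y hy => conj_eq_iff_commute.1 (by simpa using (k y hy).2.symm), fun k y hy => by
      simpa [hy] using (conj_eq_iff_commute.2 (Subgroup.mem_center_iff.1 k (σ y)).symm).symm⟩
  let ψ := p1.rangeRestrict.liftOfSurjective p1.rangeRestrict_surjective ⟨p2, fun p hp => (QuotientGroup.eq_one_iff _).2
    ((z _).1 (by have : p.1.1 = 1 := congrArg (·.1.1) hp; exact this ▸ p.2.1))⟩
  have hψ : ∀ p, ψ (p1.rangeRestrict p) = p2 p := fun p => p1.rangeRestrict.liftOfRightInverse_comp_apply _ _ _ p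
  have s : Function.Surjective ψ := fun m => by
    obtain ⟨m, rfl⟩ := QuotientGroup.mk_surjective m
    obtain ⟨g, a, b⟩ := sur m
    exact ⟨_, hψ ⟨(g, m), b, a, trivial⟩⟩
  have k : ∀ g (m : M), ψ g = m ↔ (g.1.1, m) ∈ Gd β A σ := fun g m => by
    obtain ⟨p, rfl⟩ := p1.rangeRestrict_surjective g
    rw [hψ]
    refine QuotientGroup.eq.trans ((z _).symm.trans ?_)
    rw [← mul_mem_cancel_left (show p.1 ∈ Gd β A σ from p.2.1)]
    exact Iff.of_eq (congrArg (· ∈ _) (Prod.ext (mul_one _) (mul_inv_cancel_left _ _)))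
  have c1 := ψ.ker.index_mul_card
  rw [Subgroup.index_ker, MonoidHom.range_eq_top.2 s, Subgroup.card_top] at c1
  let ι : N → ψ.ker := fun g => ⟨⟨⟨g, (hN g g.2).1⟩, ⟨(g, 1), (hN g g.2).2, (hN g g.2).1, trivial⟩, rfl⟩, (k _ 1).2 (hN g g.2).2⟩
  have i : Function.Injective ι := fun a b e => Subtype.ext (congrArg (·.1.1.1) e)
  have c2 := Nat.card_le_card_of_injective ι i
  have c3 := Subgroup.card_le_card_group p1.range
  have p : 0 < Nat.card (M ⧸ Subgroup.center M) := Nat.card_pos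
  have c4 : Nat.card N = Nat.card ψ.ker := by nlinarith
  have t : p1.range = ⊤ := Subgroup.eq_top_of_le_card _ (by nlinarith)
  refine ⟨ψ.comp ((MonoidHom.id C).codRestrict _ fun g => t.ge trivial), fun m => let ⟨g, e⟩ := s m; ⟨g.1, e⟩, fun g m => k _ m,
    fun g => ⟨fun e => ?_, fun e => (k _ 1).2 (hN _ e).2⟩, by nlinarith⟩
  obtain ⟨x, q⟩ := ((Nat.bijective_iff_injective_and_card ι).2 ⟨i, c4⟩).2 ⟨⟨g, t.ge trivial⟩, e⟩
  exact (show x.1 = g.1 from congrArg (·.1.1.1) q) ▸ x.2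

omit [Finite G] in
/-- groups generated by involutions commuting modulo `z` -/
theorem es_gens {S : Set G} (z1 : z ≠ 1) (zz : z * z = 1) (h0 : ∀ x ∈ S, Commute z x) (h1 : ∀ x ∈ S, x * x = 1)
    (h2 : ∀ x ∈ S, ∀ y ∈ S, x * y * x⁻¹ = y ∨ x * y * x⁻¹ = y * z) : (∀ x ∈ Subgroup.closure S, x * z = z * x) ∧
    (∀ x ∈ Subgroup.closure S, ∀ y ∈ Subgroup.closure S, x * y = y * x ∨ x * y = y * x * z) ∧
    ∀ x ∈ Subgroup.closure S, x * x = 1 ∨ x * x = z := by
  have c : ∀ x ∈ Subgroup.closure S, Commute z x := fun x => commute_closure h0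
  let z' : Subgroup.centralizer {z} := ⟨z, mem_cent1.2 (Commute.refl z)⟩
  let N := Subgroup.zpowers z'
  have : N.Normal := ⟨fun x hx g => by
    rwa [conj_eq_iff_commute.2 (show Commute g x from by
      obtain ⟨k, rfl⟩ := hx; exact Commute.zpow_right (show g * z' = z' * g from Subtype.ext (mem_cent1.1 g.2).symm.eq) k)]⟩
  have m : ∀ x : Subgroup.centralizer {z}, (x : _ ⧸ N) = 1 ↔ x.1 = 1 ∨ x.1 = z := fun x => by
    rw [QuotientGroup.eq_one_iff, H13.mem_zpowers_two (orderOf_eq_prime ((pow_two z').trans (Subtype.ext zz))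
      fun e => z1 (congrArg Subtype.val e)), Subtype.ext_iff, Subtype.ext_iff]; rfl
  let S' : Set (Subgroup.centralizer {z} ⧸ N) := {q | ∃ x : Subgroup.centralizer {z}, x.1 ∈ S ∧ q = x}
  have l : ∀ x hx, ((⟨x, mem_cent1.2 (c x hx)⟩ : Subgroup.centralizer {z}) : _ ⧸ N) ∈ Subgroup.closure S' := fun x hx => by
    induction hx using Subgroup.closure_induction with
    | mem x hx => exact Subgroup.subset_closure ⟨_, hx, rfl⟩
    | one => exact one_mem _
    | mul _ _ _ _ a b => exact mul_mem a b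
    | inv _ _ a => exact inv_mem a
  have cm : ∀ x ∈ Subgroup.closure S', ∀ y ∈ Subgroup.closure S', Commute x y := fun x hx y => commute_closure fun y hy =>
    (commute_closure (fun x hx => by
      obtain ⟨x, a, rfl⟩ := hx
      obtain ⟨y, b, rfl⟩ := hy
      refine conj_eq_iff_commute.1 (eq_of_inv_mul_eq_one ((m (x⁻¹ * (y * x * y⁻¹))).2 ?_)).symm
      exact (h2 _ b _ a).imp (fun e => by simp [e]) fun e => by simp [e]) hx).symm
  have sq : ∀ x ∈ Subgroup.closure S', x * x = 1 := fun x hx => by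
    induction hx using Subgroup.closure_induction with
    | mem x hx => obtain ⟨x, a, rfl⟩ := hx; exact (m (x * x)).2 (.inl (h1 _ a))
    | one => simp
    | mul x y a b p q => rw [mul_assoc, ← mul_assoc y, ← (cm x a y b).eq, mul_assoc, q, mul_one, p]
    | inv x _ p => rw [← mul_inv_rev, p, inv_one]
  refine ⟨fun x hx => (c x hx).symm, fun x hx y hy => ?_, fun x hx => (m (⟨x, mem_cent1.2 (c x hx)⟩ * ⟨x, mem_cent1.2 (c x hx)⟩)).1
    ((QuotientGroup.mk_mul _ _ _).trans (sq _ (l x hx)))⟩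
  let x' : Subgroup.centralizer {z} := ⟨x, mem_cent1.2 (c x hx)⟩
  let y' : Subgroup.centralizer {z} := ⟨y, mem_cent1.2 (c y hy)⟩
  exact ((m ((y' * x')⁻¹ * (x' * y'))).1 (inv_mul_eq_one.2 (cm _ (l y hy) _ (l x hx)).eq)).imp
    (fun e => (inv_mul_eq_one.1 e).symm) fun e => inv_mul_eq_iff_eq_mul.1 e

/-- the fibres of `σ` are tetrads with product `z` -/
structure Fib (D A : Set G) (σ : G → M) (z : G) : Prop where
  tt : IsThreeTranspositionSet D
  sub : A ⊆ D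
  hom : FHom A σ
  ne : A.Nonempty
  tet : ∀ x ∈ A, ∃ l, Clq A l ∧ l.length = 4 ∧ l.prod = z ∧ ∀ y ∈ A, σ y = σ x ↔ y ∈ l
/-- the products of two points of a fibre -/
def PP (A : Set G) (σ : G → M) : Set G := {u | ∃ x ∈ A, ∃ y ∈ A, σ x = σ y ∧ u = x * y}
omit [Finite G] in
theorem Clq.prod_of_sub {l l' : List G} (c : Clq A l) (n : l'.Nodup) (s : l' ⊆ l) (e : l.length ≤ l'.length) : l'.prod = l.prod :=
  (c.perm ((List.subperm_of_subset n s).perm_of_length_le e).symm).2.symm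
theorem FHom.gd (h : FHom A σ) {g : G} (hg : g ∈ Subgroup.closure A) :
    ∃ m ∈ Subgroup.closure (σ '' A), (g, m) ∈ Gd MulAut.conj A σ := by
  induction hg using Subgroup.closure_induction with
  | mem x hx => exact ⟨_, Subgroup.subset_closure ⟨x, hx, rfl⟩, h x hx⟩
  | one => exact ⟨1, one_mem _, one_mem _⟩
  | mul _ _ _ _ a b => obtain ⟨_, a, a'⟩ := a; obtain ⟨_, b, b'⟩ := b; exact ⟨_, mul_mem a b, mul_mem a' b'⟩
  | inv _ _ a => obtain ⟨_, a, a'⟩ := a; exact ⟨_, inv_mem a, inv_mem a'⟩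
namespace Fib
variable (h : Fib D A σ z)
include h
omit [Finite G] in
theorem comm {x y : G} (hx : x ∈ A) (hy : y ∈ A) (e : σ x = σ y) : Commute x y :=
  let ⟨_, a, _, _, b⟩ := h.tet y hy; a.comm _ ((b x hx).1 e) _ ((b y hy).1 rfl)
omit [Finite G] in
theorem comm_iff {x y : G} (hx : x ∈ A) (hy : y ∈ A) : Commute (σ x) (σ y) ↔ Commute x y := by
  refine ⟨fun c => by_contra fun n => n (h.comm hx hy ?_), fun c => conj_eq_iff_commute.1 (by
    rw [← (h.hom x hx y hy).2, conj_eq_iff_commute.2 c])⟩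
  rw [← conj_eq_iff_commute.2 c, ← (h.hom x hx y hy).2, tt_inv h.tt (h.sub hx), tt_braid h.tt (h.sub hx) (h.sub hy) n]
  nth_rw 2 [← tt_inv h.tt (h.sub hy)]
  rw [(h.hom y hy x hx).2, conj_eq_iff_commute.2 c.symm]
theorem gd {x : G} (hx : x ∈ A) : (x, σ x) ∈ Gd MulAut.conj A σ := h.hom x hx
theorem gd_pp {u : G} (hu : u ∈ PP A σ) : (u, 1) ∈ Gd MulAut.conj A σ := by
  obtain ⟨x, hx, y, hy, e, rfl⟩ := hu
  simpa [e, tt_inv h.tt (h.sub hy)] using mul_mem (h.gd hx) (inv_mem (h.gd hy))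
theorem fix {β : H →* MulAut G} {g : H} {m : M} (k : (g, m) ∈ Gd β A σ) : β g z = z := by
  obtain ⟨x, hx⟩ := h.ne
  obtain ⟨l, a, b, c, d⟩ := h.tet x hx
  obtain ⟨l', a', b', c', d'⟩ := h.tet _ (k x hx).1
  rw [← c, map_list_prod, a'.prod_of_sub (a.nodup.map (β g).injective) (List.forall_mem_map.2 fun y hy =>
    (d' _ (k y (a.1 y hy)).1).1 (by rw [(k y (a.1 y hy)).2, (k x hx).2, (d y (a.1 y hy)).2 hy])) (by simp [b, b']), c', c]
omit [Finite G] in
theorem zz : z * z = 1 := let ⟨x, hx⟩ := h.ne; let ⟨_, a, _, c, _⟩ := h.tet x hx; c ▸ (a.mono h.sub).sq h.tt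
theorem cz {x : G} (hx : x ∈ A) : Commute z x := (conj_eq_iff_commute.1 (h.fix (h.gd hx))).symm
omit [Finite G] in
theorem pp_sq {u : G} (hu : u ∈ PP A σ) : u * u = 1 := by
  obtain ⟨x, hx, y, hy, e, rfl⟩ := hu
  rw [← pow_two, sq_of_commute (tt_sq h.tt (h.sub hx)) (tt_sq h.tt (h.sub hy)) (h.comm hx hy e)]
theorem pp_cz {u : G} (hu : u ∈ PP A σ) : Commute z u := by
  obtain ⟨x, hx, y, hy, -, rfl⟩ := hu; exact (h.cz hx).mul_right (h.cz hy)
theorem pp_fix {u : G} (hu : u ∈ PP A σ) {w w' : G} (hw : w ∈ A) (hw' : w' ∈ A) (e : σ w = σ w') (c : Commute w u) :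
    Commute w' u := by
  obtain ⟨x, hx, y, hy, f, rfl⟩ := hu
  by_cases q : x = y
  · rw [q, tt_sq h.tt (h.sub hy)]; exact Commute.one_right _
  have := (h.comm_iff hw hx).2 ((tt_commute_mul_iff h.tt (h.sub hx) (h.sub hy) (h.sub hw) q).1 c).1
  exact ((h.comm_iff hw' hx).1 (e ▸ this)).mul_right ((h.comm_iff hw' hy).1 (e ▸ f ▸ this))
theorem pp_com {u v : G} (hu : u ∈ PP A σ) (hv : v ∈ PP A σ) : u * v * u⁻¹ = v ∨ u * v * u⁻¹ = v * z := by
  have g := h.gd_pp hu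
  have s := h.pp_sq hv
  obtain ⟨x, hx, y, hy, e, rfl⟩ := hv
  obtain ⟨l, a, b, c, d⟩ := h.tet x hx
  by_cases q : x = y
  · rw [q, tt_sq h.tt (h.sub hy)]; simp
  have i : ∀ {x y}, u * x * u⁻¹ = y → u * y * u⁻¹ = x := fun e => by
    rw [← e, ← mul_assoc, ← mul_assoc, h.pp_sq hu, mul_assoc, ← mul_inv_rev, h.pp_sq hu]; simp
  rw [← conj_mul]
  by_cases q1 : u * x * u⁻¹ = x
  · exact .inl (by rw [q1, conj_eq_iff_commute.2 (h.pp_fix hu hx hy e (conj_eq_iff_commute.1 q1).symm).symm])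
  by_cases q2 : u * x * u⁻¹ = y
  · exact .inl (by rw [i q2, q2, (h.comm hx hy e).eq])
  have := a.prod_of_sub (l' := [x, y, u * x * u⁻¹, u * y * u⁻¹]) (by
      have q3 : ¬ x = u * y * u⁻¹ := fun k => q2 (i k.symm)
      have q4 : ¬ y = u * y * u⁻¹ := fun k => q1 (conj_eq_iff_commute.2
        (h.pp_fix hu hy hx e.symm (conj_eq_iff_commute.1 k.symm).symm).symm)
      simp [q, Ne.symm q1, Ne.symm q2, q3, q4]) (by
      simpa using ⟨(d x hx).1 rfl, (d y hy).1 e.symm, (d _ (g x hx).1).1 (by simpa using (g x hx).2),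
        (d _ (g y hy).1).1 (by simpa [e] using (g y hy).2)⟩) b.le
  rw [c] at this
  refine .inr ?_
  rw [← this, List.prod_cons, List.prod_cons, ← mul_assoc x y, ← mul_assoc (x * y), s]; simp
omit [Finite G] in
theorem z_mem : z ∈ Subgroup.closure (PP A σ) := by
  obtain ⟨x, hx⟩ := h.ne
  obtain ⟨l, a, b, c, d⟩ := h.tet x hx
  obtain ⟨p, q, r, s, rfl⟩ : ∃ p q r s, l = [p, q, r, s] := by
    match l, b with
    | [p, q, r, s], _ => exact ⟨p, q, r, s, rfl⟩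
  have k : ∀ y ∈ [p, q, r, s], ∀ w ∈ [p, q, r, s], y * w ∈ Subgroup.closure (PP A σ) := fun y hy w hw => Subgroup.subset_closure
    ⟨y, a.1 y hy, w, a.1 w hw, ((d y (a.1 y hy)).2 hy).trans ((d w (a.1 w hw)).2 hw).symm, rfl⟩
  simpa [← c, mul_assoc] using mul_mem (k p (by simp) q (by simp)) (k r (by simp) s (by simp))
theorem gd_le {g : G} (hg : g ∈ Subgroup.closure (PP A σ)) : (g, 1) ∈ Gd MulAut.conj A σ :=
  (Subgroup.closure_le ((Gd MulAut.conj A σ).comap (MonoidHom.inl G M))).2 (fun _ => h.gd_pp) hg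
omit h in
theorem pp_map {β : H →* MulAut G} {g : H} {m : M} (k : (g, m) ∈ Gd β A σ) {u : G} (hu : u ∈ PP A σ) : β g u ∈ PP A σ := by
  obtain ⟨x, hx, y, hy, e, rfl⟩ := hu
  exact ⟨_, (k x hx).1, _, (k y hy).1, by rw [(k x hx).2, (k y hy).2, e], map_mul _ _ _⟩
omit [Finite G] in
theorem fix3 (nr : NR D 4) (φ : MulAut G) (hφ : ∀ x ∈ D, φ x ∈ D) (k : ∀ u ∈ PP A σ, φ u = u) {x : G} (hx : x ∈ A) : φ x = x := by
  obtain ⟨l, a, b, -, d⟩ := h.tet x hx
  by_contra n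
  have key : ∀ y ∈ l, y ≠ x → φ x = y := fun y hy q => by
    have c : Clq D [x, y] := ⟨by simpa using ⟨h.sub hx, h.sub (a.1 y hy)⟩, by simpa using ⟨q.symm, a.comm _ ((d x hx).1 rfl) _ hy⟩⟩
    have c' : Clq D [φ x, φ y] := ⟨by simpa using ⟨hφ _ (h.sub hx), hφ _ (h.sub (a.1 y hy))⟩,
      by simpa using ⟨q.symm, (a.comm _ ((d x hx).1 rfl) _ hy).map φ⟩⟩
    simpa [n] using (nr.perm3 h.tt c' c (by simp) (by simp) (by
      simpa using k _ ⟨x, hx, y, a.1 y hy, ((d y (a.1 y hy)).2 hy).symm, rfl⟩)).mem_iff.1 List.mem_cons_self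
  have := (List.subperm_of_subset a.nodup (l₂ := [x, φ x]) fun y hy => by
    by_cases q : y = x
    · simp [q]
    · simp [key y hy q]).length_le
  simp [b] at this
end Fib
theorem fib_of (hD : IsThreeTranspositionSet D) (s : A ⊆ D) (f : FHom A σ) {x : G} (hx : x ∈ A)
    (cls : ∀ y ∈ A, ∃ g ∈ Subgroup.closure A, g * x * g⁻¹ = y) (cz : ∀ y ∈ A, Commute z y) {l : List G} (c : Clq A l)
    (e : l.length = 4) (p : l.prod = z) (d : ∀ y ∈ A, σ y = σ x ↔ y ∈ l) : Fib D A σ z := by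
  refine ⟨hD, s, f, ⟨x, hx⟩, fun y hy => ?_⟩
  obtain ⟨g, hg, rfl⟩ := cls y hy
  obtain ⟨m, -, k⟩ := f.gd hg
  refine ⟨l.map fun y => g * y * g⁻¹, ⟨List.forall_mem_map.2 fun y hy => (k y (c.1 y hy)).1, List.pairwise_map.2 (c.2.imp fun q =>
    ⟨fun e => q.1 (conj_inj e), (commute_conj_iff g _ _).2 q.2⟩)⟩, by simpa using e, by
      rw [map_conj_prod, p, conj_eq_iff_commute.2 (commute_closure cz hg).symm], fun w hw => ?_⟩
  have k' := inv_mem k w hw
  rw [show σ (g * x * g⁻¹) = _ from (k x hx).2, List.mem_map]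
  refine ⟨fun q => ⟨_, (d _ k'.1).1 (by rw [k'.2, q]; simp [mul_assoc]), by simp [mul_assoc]⟩, ?_⟩
  rintro ⟨v, hv, rfl⟩
  rw [show σ (g * v * g⁻¹) = _ from (k v (c.1 v hv)).2, (d v (c.1 v hv)).2 hv]
end
end H28
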