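import Cfsg.Agent.H28.Tz0
import Cfsg.Agent.H27.Br

/-! Tables of fibred Fischer spaces. -/
namespace H28
open Cfsg H27 H22 H23 H23.Form
noncomputable section
variable {G M : Type*} [Group G] [Group M] {D A : Set G} {σ : G → M} {z : G}

section orth
variable {F V : Type*} [Field F] [Finite F] [AddCommGroup V] [Module F V] [FiniteDimensional F V] {Q : QuadraticForm F V}
  (hQ : (ofQuad Q).Nondeg) (h5 : 5 ≤ Module.finrank F V) (h2 : (2 : F) ≠ 0)
include hQ h5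
theorem cent_omega {m : (ofQuad Q).O} (h : ∀ k ∈ commutator _, Commute m k) : ∃ a : F, ∀ x, m.1 x = a • x :=
  scalar_of_commute_eich hQ (ofQuad_κ Q) (exists_sing_of_three_le hQ (ofQuad_κ Q) (by omega)) (by omega) m fun k hk =>
    (h k ((commutator_eq_eichGrp_of_five_le hQ (ofQuad_κ Q) h5).ge (Subgroup.subset_closure hk))).symm
theorem cent_omega' {m : (ofQuad Q).O} (h : ∀ k ∈ commutator _, Commute m k) : m ∈ Subgroup.center _ :=
  let ⟨a, ha⟩ := cent_omega hQ h5 h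
  Subgroup.mem_center_iff.2 fun y => O_ext _ fun v => by rw [O_mul_apply, O_mul_apply, ha, ha, map_smul]
include h2
theorem omega_le_normal {R : Subgroup (ofQuad Q).O} [R.Normal] {v : V} (hv : Q v ≠ 0) (h : refl (ofQuad_κ Q) v ∈ R) :
    commutator _ ≤ R := by
  refine Subgroup.subgroupOf_eq_top.1 ((omega_normal_le_center_or_eq_top hQ (ofQuad_κ Q) h5 (R.subgroupOf _) inferInstance).resolve_left
    fun c => hv ?_)
  have one : ∀ (m : (ofQuad Q).O) u, (∀ t, (ofQuad Q).B u t = 0 → (ofQuad Q).B v t = 0 → m.1 t = t) →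
      (∀ k ∈ commutator _, Commute m k) → m = 1 := fun m u a b => by
    obtain ⟨e, he⟩ := cent_omega hQ h5 b
    obtain ⟨t, w, p1, p2, -, -, p3⟩ := exists_perp_pair hQ (ofQuad_κ Q) h5 u v
    have := congrArg ((ofQuad Q).B · w) ((he t).symm.trans (a t p1 p2))
    simp only [B_smul_left, p3, RingHom.id_apply, mul_one] at this
    exact O_ext _ fun x => by rw [he, this, one_smul]; rfl
  have := congrArg (fun g : (ofQuad Q).O => g.1 v) (one (refl (ofQuad_κ Q) v) v (fun t a _ => by simp [refl_apply, a]) fun k hk => by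
    have m := Subgroup.commutator_mem_commutator (Subgroup.mem_top k) (Subgroup.mem_top (refl (ofQuad_κ Q) v))
    refine commutatorElement_eq_one_iff_commute.1 (one _ (k.1 v) (fun t a b => ?_) fun g hg => ?_) |>.symm
    · rw [commutatorElement_def, conj_refl, inv_eq_of_mul_eq_one_left (refl_mul_self _ v)]; simp [refl_apply, a, b]
    · exact (congrArg Subtype.val (Subgroup.mem_center_iff.1 (c (x := ⟨_, m⟩) (Subgroup.commutator_le_right ⊤ R
        (Subgroup.commutator_mem_commutator (Subgroup.mem_top k) h))) ⟨g, hg⟩)).symm)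
  simp only [refl_apply, B_self_quad (ofQuad_κ Q), ofQuad_Q] at this
  rw [show (1 : (ofQuad Q).O).1 v = v from rfl, sub_eq_self, smul_eq_zero,
    or_iff_right (mul_ne_zero (inv_ne_zero hv) (mul_ne_zero h2 hv))] at this
  rw [this, map_zero]
theorem omega_le_cl {v : V} (hv : Q v ≠ 0) : commutator _ ≤ Subgroup.closure (RS Q (Q v)) :=
  have : (Subgroup.closure (RS Q (Q v))).Normal := normal_closure_of_conj (by
    rintro g _ ⟨w, a, rfl⟩; exact ⟨g.1 w, (O_Q _ g w).trans a, conj_refl _ g w⟩)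
  omega_le_normal hQ h5 h2 hv (Subgroup.subset_closure ⟨v, rfl, rfl⟩)
omit hQ h5 [Finite F] [FiniteDimensional F V] in
theorem refl_conj {u v : V} (hu : Q u ≠ 0) (e : Q u = Q v) : ∃ g : (ofQuad Q).O, g * refl (ofQuad_κ Q) u * g⁻¹ = refl (ofQuad_κ Q) v := by
  have k : ∀ v, Q u = Q v → Q (u - v) ≠ 0 → (refl (ofQuad_κ Q) (u - v)).1 u = v := fun v e n => by
    have : (ofQuad Q).B (u - v) u = Q (u - v) := by
      rw [ofQuad_B, QuadraticMap.polar_sub_left, QuadraticMap.polar_self, QuadraticMap.polar_comm, sub_eq_add_neg u v,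
        QuadraticMap.map_add Q, QuadraticMap.map_neg, QuadraticMap.polar_neg_right, ← e]; simp [two_mul, sub_eq_add_neg]
    rw [refl_apply, this, ofQuad_Q, inv_mul_cancel₀ n, one_smul, sub_sub_cancel]
  by_cases n : Q (u - v) = 0
  · refine ⟨refl (ofQuad_κ Q) (u - -v), ?_⟩
    rw [conj_refl, k _ (by rw [QuadraticMap.map_neg, e]) fun q => hu ?_, ← neg_one_smul F v, refl_smul _ (by simp)]
    rw [sub_eq_add_neg, QuadraticMap.map_add Q, QuadraticMap.map_neg, QuadraticMap.polar_neg_right] at n q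
    rw [QuadraticMap.map_neg, QuadraticMap.polar_neg_right, ← e] at q
    exact (mul_eq_zero.1 (show 2 * 2 * Q u = 0 by rw [← e] at n; linear_combination n + q)).resolve_left (mul_ne_zero h2 h2)
  · exact ⟨_, by rw [conj_refl, k v e n]⟩
theorem card_pquot : 2 * Nat.card ((ofQuad Q).O ⧸ Subgroup.center _) = Nat.card (ofQuad Q).O := by
  rw [← card_center_mul_card_quotient (ofQuad Q).O, ← card_center_congr Subgroup.topEquiv, card_center_quad_eq_two hQ (ofQuad_κ Q)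
    (exists_sing_of_three_le hQ (ofQuad_κ Q) (by omega)) (by omega) ⊤ (fun _ _ => trivial) h2 trivial]
end orth
theorem rs_top {V : Type*} [AddCommGroup V] [Module (ZMod 3) V] [FiniteDimensional (ZMod 3) V] {Q : QuadraticForm (ZMod 3) V}
    (hQ : (ofQuad Q).Nondeg) (h5 : 5 ≤ Module.finrank (ZMod 3) V) {u v : V} (hv : Q v = 1) (hu : Q u = 2)
    {R : Subgroup (ofQuad Q).O} (h1 : RS Q 1 ⊆ R) (h2 : refl (ofQuad_κ Q) u ∈ R) : R = ⊤ :=
  eq_top_of_refl hQ (ofQuad_κ Q) (genHyp_of hQ (ofQuad_κ Q) (.inr (by omega))) R fun w hw => by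
    rcases (by decide : ∀ a : ZMod 3, a ≠ 0 → a = 1 ∨ a = 2) _ hw with e | e
    · exact h1 ⟨w, e, rfl⟩
    obtain ⟨g, k⟩ := refl_conj (Q := Q) (by decide) (hu ▸ by decide) (hu.trans e.symm)
    simpa [← k, commutatorElement_def] using mul_mem ((Subgroup.closure_le R).2 (hv ▸ h1)
      (omega_le_cl hQ h5 (by decide) (hv ▸ one_ne_zero) (Subgroup.commutator_mem_commutator (Subgroup.mem_top g)
        (Subgroup.mem_top (refl (ofQuad_κ Q) u))))) h2

def TD.fx (T : TD) (K : Nat) (w : List Nat) : Nat := dif (ones T.n) (movedL K T.n (wordN T.Ns w))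
theorem TM.rep_fx {T : TD} {ε : Nat → G} {xs : List G} (h : TM T ε xs D) {K : Nat} (hK : T.n ≤ 2 ^ K) (w : List Nat) :
    Rep T ε (T.fx K w) {y | y ∈ D ∧ Commute (ev xs w) y} :=
  ⟨fun y hy => h.rep.1 y hy.1, fun j => by
    rw [TD.fx, dif_iff, testBit_ones, and_congr_right_iff]
    intro hj
    rw [Bool.not_eq_true, testBit_movedL hK (by simpa [wordN, mapL_eq] using fun g _ => h.ok g) hj]
    exact (h.fn_eq w hj).trans (and_iff_right (h.bij.mapsTo hj)).symm⟩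

/-- a table of the action of a subgroup -/
structure SB (T : TD) (η : Nat → G) (ys : List G) (A : Set G) : Prop where
  bij : Set.BijOn η {j | j < T.n} A
  ok : ∀ g, (nth .nil T.Ns g).Ok T.n
  act : ∀ w, ∀ j < T.n, ev ys w * η j * (ev ys w)⁻¹ = η (fnW T.Ns w j)
  pi : ∀ p : Pt, p.1 < T.m → T.pi p < T.n ∧ η (T.pi p) = pv ys p
  rch : ∀ Q : G → Prop, (∀ g < T.m, Q (pv ys (g, []))) →
    (∀ g < T.m, ∀ y ∈ A, Q y → Q (pv ys (g, []) * y * (pv ys (g, []))⁻¹)) → ∀ y ∈ A, Q y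
  cls : ∀ a ∈ A, ∀ b ∈ A, ∃ g ∈ Subgroup.closure A, g * a * g⁻¹ = b
  gen : Subgroup.closure A = cl ys
variable {ι : Type} {p n : Nat} [Fact p.Prime]
/-- the images of the points -/
def RV (T T' : TD) (ε η : Nat → G) (w J : Nat) (e : ι ≃ Fin n) (Q : QuadraticForm (ZMod p) (ι → ZMod p))
    (σ : G → (ofQuad Q).O) (c w' V : Nat) : Prop := ∀ k < T'.n, η k = ε (ent w J k) ∧ ent w J k < T.n ∧
  Q (vec p e (ent w' V k)) = c ∧ σ (η k) = refl (ofQuad_κ Q) (vec p e (ent w' V k))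
theorem TM.sb {T T' : TD} {ε : Nat → G} {xs : List G} (h : TM T ε xs D) {P : List Pt} {w J K r : Nat}
    (hc : T.subChk T' P w J K r = true) (ha : ∀ g < T'.m, T.subAct T' P w J g = true) {a K' : Nat}
    (ra : Rep T ε a A) (hA : T.subA T' w J a K' = true) (hr : T'.rch r = true) {r' : Nat} {q : Pt}
    (h1 : T'.tgChk (ones T'.n) [] (mapL ptW (gP T'.m)) [q] r' = true)
    (e : ι ≃ Fin n) {Q : QuadraticForm (ZMod p) (ι → ZMod p)} {L : List (Nat × Nat × Nat)}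
    (hL : HQ e Q L) {c w' V K₂ : Nat} (cp : c < p) (c2 : (c : ZMod p) * c = 1) (h2 : T'.rfHom p n L c w' V K₂ = true) :
    ∃ η σ, SB T' η (P.map (pv xs)) A ∧ FHom A σ ∧ σ '' A = RS Q c ∧ RV T T' ε η w J e Q σ c w' V := by
  classical
  obtain ⟨ε', t, g, i, k⟩ := h.subF hc ha ra hA
  obtain ⟨σ, s1, s2, s3⟩ := t.refl_hom hr e hL cp c2 h2
  have m : ∀ y ∈ A, y ∈ cl (P.map (pv xs)) := fun y hy => g.le (Subgroup.subset_closure hy)
  have pv' : ∀ p, (pv (subL (P.map (pv xs))) p).1 = pv (P.map (pv xs)) p := fun p => coe_ev_subL _ _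
  simp only [TD.subChk, and'_eq, Bool.and_eq_true, allN_iff, Nat.blt_eq] at hc
  refine ⟨fun j => (ε' j).1, fun y => if h : y ∈ cl (P.map (pv xs)) then σ ⟨y, h⟩ else 1, ⟨i.bij.comp t.bij, t.ok,
    fun w j hj => by rw [← t.act w j hj, ← coe_ev_subL]; rfl, fun p hp => ⟨t.pi_lt hp, by rw [t.pi_eq hp, pv']⟩,
    fun Q a b y hy => (t.reach hr (fun y => y.1 ∈ A ∧ Q y.1) (fun g hg => ?_) (fun g hg y q => ?_) ⟨y, m y hy⟩ hy).2,
    fun a ha b hb => ?_, g⟩, fun x hx y hy => ⟨(s1 ⟨x, m x hx⟩ hx ⟨y, m y hy⟩ hy).1, ?_⟩, s2 ▸ Set.ext fun u => ⟨?_, ?_⟩,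
    fun j hj => ⟨k j hj, (hc.2.1.1 j hj).1, (s3 j hj).1, (dif_pos (ε' j).2).trans (s3 j hj).2⟩⟩
  · rw [← pv_nil]; exact ⟨t.pv_mem (p := (g, [])) hg, pv' _ ▸ a g hg⟩
  · refine ⟨t.cj _ y q.1, ?_⟩
    rw [← pv_nil, Subgroup.coe_mul, Subgroup.coe_mul, Subgroup.coe_inv, pv']
    exact b g hg _ q.1 q.2
  · obtain ⟨u, v⟩ := t.cls h1 ⟨a, m a ha⟩ ha ⟨b, m b hb⟩ hb
    exact ⟨u, g.ge u.2, congrArg Subtype.val v⟩
  · simp only [dif_pos (m x hx), dif_pos (m y hy), dif_pos (mul_mem (mul_mem (m x hx) (m y hy)) (inv_mem (m x hx)))]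
    exact (s1 ⟨x, m x hx⟩ hx ⟨y, m y hy⟩ hy).2
  · rintro ⟨y, hy, rfl⟩; exact ⟨⟨y, m y hy⟩, hy, by simp only [dif_pos (m y hy)]⟩
  · rintro ⟨y, hy, rfl⟩; exact ⟨y, hy, dif_pos y.2⟩

def TD.lowT (T : TD) (K : Nat) (Ws : List (List Nat)) (L : List (List (List Nat) × Nat × Nat)) : List Nat → Nat :=
  List.rec (motive := fun _ => List Nat → Nat) (fun _ => 1) (fun l _ ih F =>
    ite' (and' (and' (Nat.blt l.2.1 T.n) (Nat.ble T.n (Nat.shiftLeft 1 K)))
        (allL F fun f => allL (mapL (expand Ws) l.1) fun v => Nat.beq (fnW T.Ns v f) f))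
      (Nat.mul (pop K T.n (orbW T.Ns (mapL (expand Ws) l.1) l.2.2 (Nat.shiftLeft 1 l.2.1))) (ih (l.2.1 :: F))) 0) L
def ppW (q : Pt × Pt) : List Nat := cat (ptW q.1) (ptW q.2)
def TD.ppChk (T : TD) (w V : Nat) (Q : List (Pt × Pt)) : Bool :=
  allL Q fun q => and' (T.ok [q.1, q.2]) (Nat.beq (ent w V (T.pi q.1)) (ent w V (T.pi q.2)))
def TD.kerChk (T : TD) (w V : Nat) (ρ : List Nat) : Bool :=
  allN T.m fun g => force (nth 0 T.I g) fun i => Nat.beq (ent w V (fnW T.Ns ρ i)) (ent w V i)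
def TD.swChk (T T' : TD) (w J p n : Nat) (L : List (Nat × Nat × Nat)) (w' V : Nat) (s : List Nat) (u c : Nat) (ks : List Nat) : Bool :=
  and' (Nat.beq (Nat.mod (qL p L u) p) c) (allN T'.m fun g => force (nth 0 T'.I g) fun i => force (nth 0 ks g) fun k =>
    and' (and' (Nat.blt k T'.n) (Nat.beq (fnW T.Ns s (ent w J i)) (ent w J k))) (force (ent w' V i) fun x =>
      pm p n x (Nat.mul (Nat.mul (Nat.pred p) c) (bL p L u x)) u (ent w' V k)))
def TD.fibChk (T T' : TD) (w J p n w' V : Nat) (L : List Pt) (ks : List Nat) : Bool :=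
  force (ent w' V (nth 0 T'.I 0)) fun x => force (ng p n x) fun y =>
  and' (and' (and' (T.ok L) (Nat.blt 0 T'.m)) (all2 (fun q k => and' (and' (Nat.blt k T'.n) (Nat.beq (ent w' V k) x))
      (Nat.beq (ent w J k) (T.pi q))) L ks))
    (and' (and' (Nat.blt y (Nat.pow p n)) (lin p n x 0 0 1 y)) (allN T'.n fun k => force (ent w' V k) fun v =>
      and' (Nat.blt v (Nat.pow p n)) (or' (not' (or' (Nat.beq v x) (Nat.beq v y))) (anyL ks (Nat.beq k)))))
namespace SB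
variable {T : TD} {η : Nat → G} {ys : List G} (h : SB T η ys A)
include h
theorem low' [Finite G] {H Z : Subgroup G} {K : Nat} {Ws : List (List Nat)} (hW : ∀ v ∈ Ws, ev ys v ∈ H)
    (hZ : ∀ g ∈ Z, ∀ y ∈ A, Commute y g) (L : List (List (List Nat) × Nat × Nat)) {F : List Nat} (hF : ∀ f ∈ F, f < T.n)
    (hH : Z ≤ H) : T.lowT K Ws L F * Nat.card Z ≤ Nat.card ↥(H ⊓ Cn (F.map η)) := by
  induction L generalizing F with
  | nil => exact (one_mul _).trans_le (Subgroup.card_le_of_le (le_inf hH fun g hg => mem_cn.2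
      (List.forall_mem_map.2 fun f hf => hZ g hg _ (h.bij.mapsTo (hF f hf)))))
  | cons l L ih =>
    change ite' _ (_ * T.lowT K Ws L _) 0 * _ ≤ _
    rw [ite'_eq]
    split_ifs with k
    swap; · simp
    simp only [and'_eq, Bool.and_eq_true, Nat.ble_eq, Nat.blt_eq, mapL_eq, allL_iff, beq_iff] at k ⊢
    rw [mul_assoc, card_conj_list (H ⊓ Cn (F.map η)) [η l.2.1], ← ncard_mset_pop h.bij.injOn (Nat.one_shiftLeft K ▸ k.1.2),
      ← Set.ncard_image_of_injective _ List.singleton_injective]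
    refine Nat.mul_le_mul (Set.ncard_le_ncard ?_ (Set.Finite.subset (Set.finite_range fun g : G => [g]) ?_))
      ((ih (List.forall_mem_cons.2 ⟨k.1.1, hF⟩)).trans (Subgroup.card_le_of_le fun g hg => ⟨⟨hg.1, mem_cn.2 fun q hq =>
        mem_cn.1 hg.2 q (List.mem_cons_of_mem _ hq)⟩, mem_cn.2 (by simpa using mem_cn.1 hg.2 _ List.mem_cons_self)⟩))
    · rintro _ ⟨_, ⟨j, hj, rfl⟩, rfl⟩
      refine orbW_ind h.ok (fun j => j < T.n → ∃ g ∈ H ⊓ Cn (F.map η), [g * η l.2.1 * g⁻¹] = [η j]) (fun v hv j q hj => ?_) _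
        (fun j b _ => ⟨1, one_mem _, by simp [(testBit_one_shiftLeft _ _).1 b]⟩) j hj.2 hj.1
      obtain ⟨g, a, b⟩ := q (fnW_lt h.ok v hj)
      refine ⟨(ev ys v)⁻¹ * g, mul_mem (inv_mem ⟨?_, mem_cn.2 (List.forall_mem_map.2 fun f hf => ?_)⟩) a, ?_⟩
      · obtain ⟨u, -, rfl⟩ := List.mem_map.1 hv
        exact ev_expand ys Ws u ▸ ev_mem (List.forall_mem_map.2 hW) u
      · exact (conj_eq_iff_commute.1 ((h.act v f (hF f hf)).trans (congrArg η (k.2 f hf v hv)))).symm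
      · rw [← h.act v j hj, List.singleton_inj] at b
        rw [show (ev ys v)⁻¹ * g * η l.2.1 * ((ev ys v)⁻¹ * g)⁻¹ = (ev ys v)⁻¹ * (g * η l.2.1 * g⁻¹) * ev ys v by group, b]; group
    · rintro _ ⟨g, -, rfl⟩; exact ⟨_, rfl⟩
theorem low [Finite G] {H Z : Subgroup G} {K b : Nat} {Ws : List (List Nat)} (hW : ∀ v ∈ Ws, ev ys v ∈ H)
    (hZ : ∀ g ∈ Z, ∀ y ∈ A, Commute y g) (hH : Z ≤ H) {L : List (List (List Nat) × Nat × Nat)}
    (hc : Nat.ble b (T.lowT K Ws L []) = true) : b * Nat.card Z ≤ Nat.card H :=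
  (Nat.mul_le_mul_right _ (Nat.le_of_ble_eq_true hc)).trans ((h.low' hW hZ L (by simp) hH).trans (Subgroup.card_le_of_le inf_le_left))
theorem mem {q : Pt} (hq : q.1 < T.m) : pv ys q ∈ A := (h.pi q hq).2 ▸ h.bij.mapsTo (h.pi q hq).1
theorem gd [Finite G] (f : FHom A σ) {s : G} {m : M} (k : ∀ g < T.m, s * η (nth 0 T.I g) * s⁻¹ ∈ A ∧
    σ (s * η (nth 0 T.I g) * s⁻¹) = m * σ (η (nth 0 T.I g)) * m⁻¹) : (s, m) ∈ Gd MulAut.conj A σ := by
  have k' := fun g hg => (show η (nth 0 T.I g) = _ from (h.pi (g, []) hg).2) ▸ k g hg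
  refine h.rch (fun y => s * y * s⁻¹ ∈ A ∧ σ (s * y * s⁻¹) = m * σ y * m⁻¹) k' fun g hg y hy q => ?_
  have := f _ (k' g hg).1 _ q.1
  rw [conj_mul, conj_inv, conj_mul] at this
  exact ⟨this.1, by rw [this.2, (k' g hg).2, q.2, (f _ (h.mem (q := (g, [])) hg) _ hy).2]; group⟩
variable {T₀ : TD} {ε : Nat → G} {w J : Nat} {e : ι ≃ Fin n} {Q : QuadraticForm (ZMod p) (ι → ZMod p)}
  {σ : G → (ofQuad Q).O} {c w' V : Nat} (r : RV T₀ T ε η w J e Q σ c w' V)
include r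
theorem pp {L : List (Pt × Pt)} (hc : T.ppChk w' V L = true) : ∀ v ∈ mapL ppW L, ev ys v ∈ PP A σ := by
  simp only [TD.ppChk, allL_iff, and'_eq, Bool.and_eq_true, TD.ok_iff, beq_iff, List.forall_mem_cons] at hc
  rw [mapL_eq]
  refine List.forall_mem_map.2 fun q hq => ?_
  obtain ⟨⟨a, b, -⟩, c⟩ := hc q hq
  exact ⟨_, h.mem a, _, h.mem b, by rw [← (h.pi _ a).2, ← (h.pi _ b).2, (r _ (h.pi _ a).1).2.2.2, (r _ (h.pi _ b).1).2.2.2, c],
    by rw [ppW, cat_eq, ev_append]; rfl⟩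
theorem ker [Finite G] (f : FHom A σ) {ρ : List Nat} (hc : T.kerChk w' V ρ = true) : (ev ys ρ, 1) ∈ Gd MulAut.conj A σ := by
  simp only [TD.kerChk, allN_iff, force_eq, beq_iff] at hc
  refine h.gd f fun g hg => ?_
  have a : nth 0 T.I g < T.n := (h.pi (g, []) hg).1
  rw [h.act _ _ a, (r _ a).2.2.2, (r _ (fnW_lt h.ok _ a)).2.2.2, hc g hg]
  exact ⟨h.bij.mapsTo (fnW_lt h.ok _ a), by simp⟩
theorem sw [Finite G] (f : FHom A σ) {xs : List G} (t : TM T₀ ε xs D) {L : List (Nat × Nat × Nat)} (hL : HQ e Q L) {s : List Nat}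
    {u c' : Nat} {ks : List Nat} (c2 : (c' : ZMod p) * c' = 1) (hc : T₀.swChk T w J p n L w' V s u c' ks = true) :
    Q (vec p e u) = c' ∧ (ev xs s, refl (ofQuad_κ Q) (vec p e u)) ∈ Gd MulAut.conj A σ := by
  simp only [TD.swChk, allN_iff, force_eq, beq_iff, and'_eq, Bool.and_eq_true, Nat.blt_eq] at hc
  have q : Q (vec p e u) = c' := by rw [hL.q, ← hc.1]; exact (ZMod.natCast_mod _ _).symm
  refine ⟨q, h.gd f fun g hg => ?_⟩
  have a : nth 0 T.I g < T.n := (h.pi (g, []) hg).1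
  obtain ⟨⟨b1, b2⟩, b3⟩ := hc.2 g hg
  rw [(r _ a).2.2.2, (r _ a).1, t.act _ _ (r _ a).2.1, b2, ← (r _ b1).1, (r _ b1).2.2.2, conj_refl, ← pm_eq e Q b3, refl_apply,
    ofQuad_Q, q, ofQuad_B, hL.b, inv_eq_of_mul_eq_one_left c2, sub_eq_add_neg, ← neg_smul]
  exact ⟨h.bij.mapsTo b1, by simp only [Nat.mul_eq, Nat.cast_mul, cast_pred, neg_mul, one_mul]⟩
theorem fib [Finite G] (f : FHom A σ) {xs : List G} (t : TM T₀ ε xs D) (s : A ⊆ D) (hQ : (ofQuad Q).Nondeg) (c0 : (c : ZMod p) ≠ 0)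
    {L : List Pt} {ks : List Nat} (hc : T₀.fibChk T w J p n w' V L ks = true) (cz : ∀ y ∈ A, Commute z y)
    (cl : Clq D (L.map (pv xs))) (len : L.length = 4) (pr : (L.map (pv xs)).prod = z) : Fib D A σ z := by
  simp only [TD.fibChk, allN_iff, force_eq, beq_iff, and'_eq, or'_eq, not'_eq, Bool.and_eq_true, Nat.blt_eq, TD.ok_iff, all2_iff,
    Bool.or_eq_true, anyL_iff, Bool.not_eq_true', Bool.eq_false_iff, Ne] at hc
  obtain ⟨⟨⟨h1, h2⟩, h3⟩, ⟨h4, h5⟩, h6⟩ := hc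
  have a : nth 0 T.I 0 < T.n := (h.pi (0, []) h2).1
  have k1 : ∀ q ∈ L, ∃ k < T.n, η k = pv xs q ∧ ent w' V k = ent w' V (nth 0 T.I 0) := fun q hq => by
    obtain ⟨i, hi, rfl⟩ := List.getElem_of_mem hq
    obtain ⟨⟨b1, b2⟩, b3⟩ := (List.forall₂_iff_get.1 h3).2 i hi (h3.length_eq ▸ hi)
    exact ⟨_, b1, by rw [(r _ b1).1, b3, t.pi_eq (h1 _ (List.get_mem _ _))]; rfl, b2⟩
  have k2 : ∀ k ∈ ks, η k ∈ L.map (pv xs) := fun k hk => by
    obtain ⟨i, hi, rfl⟩ := List.getElem_of_mem hk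
    obtain ⟨⟨b1, -⟩, b3⟩ := (List.forall₂_iff_get.1 h3).2 i (h3.length_eq ▸ hi) hi
    exact List.mem_map.2 ⟨_, List.get_mem _ _, by rw [← t.pi_eq (h1 _ (List.get_mem _ _)), ← b3, ← (r _ b1).1]; rfl⟩
  refine fib_of t.tt s f (h.bij.mapsTo a) (h.cls _ (h.bij.mapsTo a)) cz ⟨List.forall_mem_map.2 fun q hq => ?_, cl.2⟩
    (by simpa using len) pr fun y hy => ⟨fun q => ?_, fun q => ?_⟩
  · obtain ⟨k, b, c, -⟩ := k1 q hq; exact c ▸ h.bij.mapsTo b
  · obtain ⟨k, hk, rfl⟩ := h.bij.surjOn hy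
    rw [(r k hk).2.2.2, (r _ a).2.2.2] at q
    obtain ⟨j, b, d⟩ := (h6 k hk).2.resolve_left fun n => by
      rcases refl_inj hQ _ ((r k hk).2.2.1.trans_ne c0) ((r k hk).2.2.1.trans (r _ a).2.2.1.symm) q with q | q
      · exact n (.inl (vec_inj e (h6 k hk).1 (h6 _ a).1 q))
      · exact n (.inr (vec_inj e (h6 k hk).1 h4 (q.trans (neg_eq_of_add_eq_zero_right (by simpa using lin_eq e h5)))))
    exact d ▸ k2 j b
  · obtain ⟨u, hq, rfl⟩ := List.mem_map.1 q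
    obtain ⟨k, b, c, d⟩ := k1 u hq
    rw [← c, (r k b).2.2.2, (r _ a).2.2.2, d]
end SB
end
end H28
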