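import Cfsg.Agent.H28.Tz2
import Cfsg.Agent.S0822
import Cfsg.Agent.S0815

/-! The centraliser of a product of two commuting transpositions in a group of type M(22). -/
set_option maxRecDepth 100000
namespace H28
open Cfsg H27 H22 H23 H23.Form
noncomputable section
variable {G M : Type*} [Group G] [Group M] {D A : Set G} {z : G}

section
variable [Finite G] {V : Type*} [AddCommGroup V] [Module (ZMod 3) V] [FiniteDimensional (ZMod 3) V] {Q : QuadraticForm (ZMod 3) V}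
  {σ : G → (ofQuad Q).O} (h : Fib D A σ z) (hs : σ '' A = RS Q 1) (hQ : (ofQuad Q).Nondeg) (h5 : 5 ≤ Module.finrank (ZMod 3) V)
include h hs hQ h5
omit [Finite G] in
theorem Fib.cen (m : (ofQuad Q).O) (c : ∀ y ∈ A, Commute m (σ y)) : m ∈ Subgroup.center _ :=
  let ⟨x, hx⟩ := h.ne
  let ⟨_, hv, _⟩ := hs.le ⟨x, hx, rfl⟩
  cent_omega' hQ h5 fun _ hk => commute_closure (fun _ hy => let ⟨y, a, b⟩ := hs.ge (hv ▸ hy); b ▸ c y a)
    (omega_le_cl hQ h5 (by decide) (hv ▸ one_ne_zero) hk)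
theorem Fib.sur {u : V} (hu : Q u = 2) {s : G} (k : (s, refl (ofQuad_κ Q) u) ∈ Gd MulAut.conj A σ) (m : (ofQuad Q).O) :
    ∃ g ∈ Subgroup.centralizer {z}, (g, m) ∈ Gd MulAut.conj A σ :=
  let ⟨x, hx⟩ := h.ne
  let ⟨_, hv, _⟩ := hs.le ⟨x, hx, rfl⟩
  let ⟨p, a, b⟩ := (rs_top hQ h5 hv hu (R := (Gd MulAut.conj A σ).map (MonoidHom.snd _ _))
    (fun _ hy => let ⟨y, a, b⟩ := hs.ge hy; ⟨_, h.gd a, b⟩) ⟨_, k, rfl⟩).ge (Subgroup.mem_top m)
  ⟨p.1, mem_cent1.2 (conj_eq_iff_commute.1 (h.fix (g := p.1) (m := p.2) a)).symm, b ▸ a⟩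
end
theorem gd_one [Finite G] {σ : G → M} {g : G} (h : ∀ y ∈ A, Commute y g) : (g, 1) ∈ Gd MulAut.conj A σ := fun y hy => by
  simpa [conj_eq_iff_commute.2 (h y hy).symm] using hy
theorem four_le [Finite G] (hD : IsThreeTranspositionSet D) {a b : G} (c : Clq D [a, b]) : 4 ≤ Nat.card (cl [a, b]) := by
  have ha := c.1 a (by simp)
  have a1 := tt_ne_one hD ha
  have b1 := tt_ne_one hD (c.1 b (by simp))
  have n : a ≠ b := by simpa using c.nodup
  have := Set.ncard_le_ncard (s := {1, a, b, a * b}) (t := cl [a, b]) (by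
    rintro _ (rfl | rfl | rfl | rfl)
    exacts [one_mem _, mem_cl (by simp), mem_cl (by simp), mul_mem (mem_cl (by simp)) (mem_cl (by simp))]) (Set.toFinite _)
  rwa [Set.ncard_insert_of_notMem (by simp [a1.symm, b1.symm, Ne.symm (mt (tt_eq_of_mul_eq_one hD ha) n)]),
    Set.ncard_insert_of_notMem (by simp [n, b1]), Set.ncard_pair (by simp [a1])] at this

/-- the orthogonal group of dimension five -/
abbrev O5 := (ofQuad (qOdd 2 (ZMod 3))).O
/-- its central quotient -/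
abbrev P5 := O5 ⧸ Subgroup.center O5
theorem nd5 : (ofQuad (qOdd 2 (ZMod 3))).Nondeg := qOdd_nondeg (by decide) 2
theorem card_o5 : Nat.card O5 = 103680 := (nsing_card_O_quad_odd 2 _ nd5 (by simp)).2.trans (by simp [Finset.prod_range_succ])
instance : Finite O5 := Nat.finite_of_card_ne_zero (by rw [card_o5]; norm_num)
theorem card_p5 : Nat.card P5 = 51840 := by
  have : 2 * Nat.card P5 = 103680 := (card_pquot nd5 (by simp) (by decide)).trans card_o5
  omega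
theorem p5_equiv : Nonempty (P5 ≃* isometryGroup (ZMod 2) (quadFormMinus 2 (ZMod 2) 1 1)) ∧
    Nonempty (P5 ≃* MulAut (PSU 4 GF4 2)) ∧ pCore 2 P5 = ⊥ := by
  obtain ⟨φ, hφ⟩ := Cfsg.Agent.S0822.exists_hom
  have hQ := qMinus_nondeg (F := ZMod 2) 2 aniso_two
  have c : Nat.card (ofQuad (qMinus 2 (ZMod 2) 1 1)).O = 51840 := by rw [card_O_qMinus 2 aniso_two]; simp [Finset.prod_range_succ]
  have : Finite (ofQuad (qMinus 2 (ZMod 2) 1 1)).O := Nat.finite_of_card_ne_zero (by omega)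
  have z : Subgroup.centralizer (commutator (ofQuad (qMinus 2 (ZMod 2) 1 1)).O : Set (ofQuad (qMinus 2 (ZMod 2) 1 1)).O) = ⊥ := eq_bot_iff.2 fun m hm => by
    obtain ⟨a, ha⟩ := cent_omega hQ (by simp) (m := m) fun k hk => (hm k hk).symm
    obtain rfl : a = 1 := (by decide : ∀ a : ZMod 2, a * a = 1 → a = 1) a (norm_eq_one_of_scalar hQ m ha)
    exact O_ext _ fun x => by rw [ha, one_smul]; rfl
  have e := MulEquiv.ofBijective ((QuotientGroup.mk' (Subgroup.center O5)).comp φ) ((Nat.bijective_iff_injective_and_card _).2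
    ⟨(injective_iff_map_eq_one _).2 fun m hm => z.le fun k _ => hφ (by
      rw [map_mul, map_mul]; exact Subgroup.mem_center_iff.1 ((QuotientGroup.eq_one_iff _).1 hm) _), c.trans card_p5.symm⟩)
  obtain ⟨j⟩ := nonempty_ringHom_of_card_eq_pow (F := ZMod 2) (n := 2) two_ne_zero gf4_card
  let := j.toAlgebra
  obtain ⟨e1⟩ := pomega_minus_six (F := ZMod 2) (K := GF4) gf4_card aniso_two
  have e2 : commutator (ofQuad (qMinus 2 (ZMod 2) 1 1)).O ≃* PSU 4 GF4 2 := ((quotZ (eq_bot_iff.2 fun x hx => Subtype.ext (z.le fun k hk => congrArg Subtype.val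
    (Subgroup.mem_center_iff.1 hx ⟨k, hk⟩)))).trans (pOmegaEquiv (qMinus 2 (ZMod 2) 1 1)).symm).trans e1
  have i := (commutator (ofQuad (qMinus 2 (ZMod 2) 1 1)).O).index_mul_card
  rw [index_commutator_of_sq hQ rfl (genHyp_qMinus 2 aniso_two) (by decide), Nat.card_congr e2.toEquiv] at i
  obtain ⟨-, ⟨e3⟩⟩ := aut_of_cent z e2 (((Cfsg.Agent.S0815.result 2 1 le_rfl rfl gf4_card 4 (by norm_num) (by simp)).trans i).le)
  refine ⟨⟨e.symm.trans (isomEquiv _).symm⟩, ⟨e.symm.trans e3⟩, eq_bot_iff.2 ?_⟩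
  have := PSU_isSimpleGroup (q := 2) gf4_card 4 (by norm_num) (by norm_num)
  have := e2.isSimpleGroup
  have k := H13.pCore_eq_bot_of_simple (L := commutator (ofQuad (qMinus 2 (ZMod 2) 1 1)).O) (by
    rw [Nat.card_congr e2.toEquiv]; omega)
  have t : pCore 2 (ofQuad (qMinus 2 (ZMod 2) 1 1)).O ≤ ⊥ := fun m hm => z.le fun y hy => commutatorElement_eq_one_iff_mul_comm.1
    (congrArg Subtype.val (k.le (x := ⟨_, Subgroup.commutator_le_left _ _ (Subgroup.commutator_mem_commutator hy hm)⟩)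
      (H1.le_pCore (N := (pCore 2 _).subgroupOf _) (H1.isPGroup_pCore 2).comap_subtype
        (Subgroup.mem_subgroupOf.2 (Subgroup.commutator_le_right _ _ (Subgroup.commutator_mem_commutator hy hm))))))
  exact fun x hx => (map_eq_one_iff _ e.symm.injective).1 (t (H1.map_pCore_le 2 (f := e.symm.toMonoidHom) e.symm.surjective ⟨x, hx, rfl⟩))
/-- the coordinates of the form of dimension five -/
def e5 : Unit ⊕ (Fin 2 ⊕ Fin 2) ≃ Fin (1 + (2 + 2)) := (Equiv.sumCongr finOneEquiv.symm finSumFinEquiv).trans finSumFinEquiv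
theorem hq5 : HQ (n := 5) e5 (qOdd 2 (ZMod 3)) z5L := fun f => by
  rw [coe_qOdd, quadFormOdd, Fin.sum_univ_two]
  change f 0 ^ 2 + (f 1 * f 3 + f 2 * f 4) = _
  simp [z5L, sq]
namespace M22
variable (h : M22 D) [Finite G] {a b : G} (c : Clq D [a, b])
include h c
theorem tz : ∃ σ : G → O5, Fib D (Nb D [a, b]) σ (a * b) ∧ (∀ m, (∀ y ∈ Nb D [a, b], Commute m (σ y)) → m ∈ Subgroup.center _) ∧
    (∀ m, ∃ g ∈ Subgroup.centralizer {a * b}, (g, m) ∈ Gd MulAut.conj (Nb D [a, b]) σ) ∧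
    ∀ H Z : Subgroup G, PP (Nb D [a, b]) σ ⊆ H → Z ≤ H → (∀ g ∈ Z, ∀ y ∈ Nb D [a, b], Commute y g) →
      256 * Nat.card Z ≤ Nat.card H := by
  obtain ⟨ε, xs, f⟩ := h.fm
  obtain ⟨g, hg⟩ := f.gc2 _ c rfl
  obtain ⟨ε, xs, f, e⟩ := f.wlog hg
  obtain ⟨rfl, rfl⟩ : a = pv xs (2, []) ∧ b = pv xs (0, []) := by simpa using e
  obtain ⟨η, σ, s, t, i, r⟩ := f.sb (A := Nb D [pv xs (2, []), pv xs (0, [])]) z5_chk z5_act
    (f.rep_nb (l := [(2, []), (0, [])]) (by decide) f.rep) z5_A z5_rch z5_cls e5 hq5 (by norm_num) (by decide) z5_hom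
  obtain ⟨p, q⟩ := Clq.prod_eq' h.tt (l := [pv xs (2, []), pv xs (0, [])]) (l' := z5T.map (pv xs))
    (f.base.sub (List.Sublist.map _ (List.sublist_append_left _ _ |>.trans (List.sublist_append_left _ _)))) f.hexad
    (List.Perm.map (pv xs) (by decide : (h22 ++ l22).Perm ([(2, []), (0, [])] ++ z5T)))
  have k := s.fib r t f.toTM (fun _ hy => hy.1) nd5 (by decide) z5_fib
    (z := pv xs (2, []) * pv xs (0, [])) (fun y hy => (hy.2.2 _ (by simp)).mul_left (hy.2.2 _ (by simp))) p rfl (q.symm.trans (by simp))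
  obtain ⟨u1, u2⟩ := s.sw r t f.toTM hq5 (by decide) z5_s
  exact ⟨σ, k, k.cen i nd5 (by simp), k.sur i nd5 (by simp) u1 u2, fun H Z a b d => s.low (fun v hv => a (s.pp r z5_pp v hv)) d b z5_low⟩
omit [Finite G] in
theorem cent2 : ((Cn [a, b]).subgroupOf (Subgroup.centralizer {a * b})).index = 2 ∧
    Nat.card (Subgroup.centralizer {a * b}) = 53084160 := by
  obtain ⟨φ, p, q⟩ := cent_prod h.lv.tg.2.1 c (h.gts 2 (by norm_num)) fun l x y z =>
    (h.nr.perm3 h.tt c x (by simp) (by rw [y]; simp) z.symm).symm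
  have i := φ.ker.index_mul_card
  have j : φ.ker.index = 2 := by rw [Subgroup.index_ker, MonoidHom.range_eq_top.2 p]; simp [Fintype.card_perm]
  rw [j, q, Nat.card_congr (Subgroup.subgroupOfEquivOfLe cn_le_prod).toEquiv, h.card2 c rfl] at i
  rw [q] at j
  rw [show a * b = [a, b].prod by simp]
  exact ⟨j, i.symm⟩
theorem tz2 : ∃ (σ : G → O5) (E : Subgroup G) (Ψ : Subgroup.centralizer {a * b} →* P5), Fib D (Nb D [a, b]) σ (a * b) ∧
    (∀ m, (∀ y ∈ Nb D [a, b], Commute m (σ y)) → m ∈ Subgroup.center _) ∧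
    (∀ m, ∃ g ∈ Subgroup.centralizer {a * b}, (g, m) ∈ Gd MulAut.conj (Nb D [a, b]) σ) ∧
    E = Subgroup.closure (insert a (PP (Nb D [a, b]) σ)) ∧ Function.Surjective Ψ ∧ (∀ g, Ψ g = 1 ↔ g.1 ∈ E) ∧
    Nat.card E = 1024 ∧ cl [a, b] ≤ E ∧ E ≤ Cn [a, b] ∧ (∀ g ∈ E, (g, 1) ∈ Gd MulAut.conj (Nb D [a, b]) σ) ∧
    (∀ g, (∀ y ∈ Nb D [a, b], Commute y g) → g ∈ cl [a, b]) ∧
    (∀ x ∈ E, ∀ y ∈ E, x * y = y * x ∨ x * y = y * x * (a * b)) ∧ (∀ x ∈ E, x * x = 1 ∨ x * x = a * b) ∧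
    ∀ g, (∀ x ∈ E, Commute x g) → g ∈ cl [a, b] := by
  obtain ⟨σ, f, c1, c2, c3⟩ := h.tz c
  have ha := c.1 a (by simp)
  have ab := c.comm a (by simp) b (by simp)
  have pn : PP (Nb D [a, b]) σ ⊆ Cn [a, b] := by
    rintro _ ⟨x, hx, y, hy, -, rfl⟩; exact mul_mem (mem_cn.2 hx.2.2) (mem_cn.2 hy.2.2)
  have En : Subgroup.closure (insert a (PP (Nb D [a, b]) σ)) ≤ Cn [a, b] := (Subgroup.closure_le _).2
    (Set.insert_subset (c.cl_le_cn (mem_cl (by simp))) pn)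
  have aE : a ∈ Subgroup.closure (insert a (PP (Nb D [a, b]) σ)) := Subgroup.subset_closure (Set.mem_insert _ _)
  have pE : PP (Nb D [a, b]) σ ⊆ Subgroup.closure (insert a (PP (Nb D [a, b]) σ)) := fun _ h =>
    Subgroup.subset_closure (Set.mem_insert_of_mem _ h)
  have VE : cl [a, b] ≤ Subgroup.closure (insert a (PP (Nb D [a, b]) σ)) := cl_le (by
    simpa [aE] using (mul_mem_cancel_left aE).1 (Subgroup.closure_mono (Set.subset_insert _ _) f.z_mem))
  have g1 : ∀ g ∈ Subgroup.closure (insert a (PP (Nb D [a, b]) σ)), (g, 1) ∈ Gd MulAut.conj (Nb D [a, b]) σ := fun g hg =>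
    (Subgroup.closure_le ((Gd MulAut.conj _ σ).comap (MonoidHom.inl G O5))).2 (Set.insert_subset
      (gd_one fun y hy => (hy.2.2 a (by simp)).symm) fun _ => f.gd_pp) hg
  have v4 := four_le h.tt c
  have cV : ∀ g ∈ cl [a, b], ∀ y ∈ Nb D [a, b], Commute y g := fun g hg y hy => commute_cl (fun p hp => (hy.2.2 p hp).symm) hg
  have l1 := c3 _ _ pE VE cV
  obtain ⟨Ψ, p1, p2, p3, p4⟩ := gam c1 c2 (fun g hg => ⟨by simpa using cn_le_prod (En hg), g1 g hg⟩) (by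
    rw [(h.cent2 c).2, card_p5]; omega)
  rw [(h.cent2 c).2, card_p5] at p4
  have cA : ∀ g, (∀ y ∈ Nb D [a, b], Commute y g) → g ∈ cl [a, b] := fun g hg => by
    have l2 := c3 _ (Subgroup.centralizer (Nb D [a, b])) pE (fun g hg => (p3 ⟨g, mem_cent1.2 (conj_eq_iff_commute.1
      (f.fix (gd_one (σ := σ) hg))).symm⟩).1 ((p2 _ 1).2 (gd_one hg))) fun _ h => h
    exact (Subgroup.eq_of_le_of_card_ge (H := cl [a, b]) (K := Subgroup.centralizer (Nb D [a, b])) cV (by omega)).ge hg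
  obtain ⟨-, q2, q3⟩ := es_gens (z := a * b) (S := insert a (PP (Nb D [a, b]) σ)) (fun e => by
      simpa using h.nr _ c (by simp) (by simpa using e)) f.zz
    (Set.forall_mem_insert.2 ⟨(Commute.refl a).mul_left ab.symm, fun _ => f.pp_cz⟩)
    (Set.forall_mem_insert.2 ⟨tt_sq h.tt ha, fun _ => f.pp_sq⟩)
    (Set.forall_mem_insert.2 ⟨fun y hy => .inl (conj_eq_iff_commute.2 (mem_cn.1 (En (Subgroup.subset_closure hy)) a (by simp))),
      fun x hx => Set.forall_mem_insert.2 ⟨.inl (conj_eq_iff_commute.2 (mem_cn.1 (pn hx) a (by simp)).symm), fun _ => f.pp_com hx⟩⟩)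
  exact ⟨σ, _, Ψ, f, c1, c2, rfl, p1, p3, by omega, VE, En, g1, cA, q2, q3, fun g hg => cA g fun y hy => (conj_eq_iff_commute.1
    (f.fix3 (h.nr.mono (by norm_num)) (MulAut.conj g) (h.lv.tg.2.1 g) (fun u hu => conj_eq_iff_commute.2 (hg u (pE hu)).symm) hy)).symm⟩
end M22
end
end H28
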